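import Mathlib
import Cfsg.Agent.H887.SiegelMethod
set_option linter.all false

-- part: H922/TenBase
section
/-!
Tensor decompositions `V = A ⊗ B` of quadratic spaces: basic linear algebra.
`ten : A →ₗ B →ₗ V` with `polar Q (ten a b) (ten a' b') = polar QA a a' * polar QB b b'`.
-/

set_option autoImplicit false
set_option linter.unusedSectionVars false

namespace Cfsg.Agent.H922.Ten

open QuadraticMap Cfsg.Agent.LieClassical.OrthCore Cfsg.Agent.LieClassical.OrthTrans
  Cfsg.Agent.LieClassical.OrthSimple Cfsg.Agent.ClassicalGeometry.OrthAutBasic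
  Cfsg.Agent.H887.SiegelMethod

variable {F V A B : Type*} [Field F] [AddCommGroup V] [Module F V] [AddCommGroup A] [Module F A]
  [AddCommGroup B] [Module F B] {Q : QuadraticForm F V} {QA : QuadraticForm F A}
  {QB : QuadraticForm F B} {ten : A →ₗ[F] B →ₗ[F] V}

/-- `V` is the tensor product of the quadratic spaces `A` and `B`. -/
structure TD (Q : QuadraticForm F V) (QA : QuadraticForm F A) (QB : QuadraticForm F B)
    (ten : A →ₗ[F] B →ₗ[F] V) : Prop where
  two : (2 : F) ≠ 0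
  form : ∀ a b a' b', polar Q (ten a b) (ten a' b') = polar QA a a' * polar QB b b'
  bij : Function.Bijective (TensorProduct.lift ten)
  nA : Nondeg QA
  nB : Nondeg QB

/-- The identification with the tensor product. -/
noncomputable def TD.e (h : TD Q QA QB ten) : TensorProduct F A B ≃ₗ[F] V :=
  LinearEquiv.ofBijective (TensorProduct.lift ten) h.bij

theorem TD.e_tmul (h : TD Q QA QB ten) (a : A) (b : B) :
    h.e (TensorProduct.tmul F a b) = ten a b := by
  simp [TD.e]

theorem TD.e_symm (h : TD Q QA QB ten) (a : A) (b : B) :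
    h.e.symm (ten a b) = TensorProduct.tmul F a b := by
  rw [← h.e_tmul, LinearEquiv.symm_apply_apply]

/-- Two linear maps which agree on pure tensors are equal. -/
theorem TD.ext (h : TD Q QA QB ten) {W : Type*} [AddCommGroup W] [Module F W] {f g : V →ₗ[F] W}
    (hfg : ∀ a b, f (ten a b) = g (ten a b)) : f = g := by
  have h1 : f ∘ₗ h.e.toLinearMap = g ∘ₗ h.e.toLinearMap := by
    apply TensorProduct.ext'
    intro a b
    simp only [LinearMap.comp_apply, LinearEquiv.coe_coe, h.e_tmul]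
    exact hfg a b
  ext v
  have h2 := LinearMap.congr_fun h1 (h.e.symm v)
  simpa using h2

theorem TD.ext_equiv (h : TD Q QA QB ten) {W : Type*} [AddCommGroup W] [Module F W]
    {f g : V ≃ₗ[F] W} (hfg : ∀ a b, f (ten a b) = g (ten a b)) : f = g := by
  have h1 : (f : V →ₗ[F] W) = g := h.ext hfg
  ext v
  exact LinearMap.congr_fun h1 v

/-- The linear map given on pure tensors. -/
noncomputable def TD.tl (h : TD Q QA QB ten) {W : Type*} [AddCommGroup W] [Module F W]
    (φ : A →ₗ[F] B →ₗ[F] W) : V →ₗ[F] W :=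
  (TensorProduct.lift φ) ∘ₗ h.e.symm.toLinearMap

theorem TD.tl_ten (h : TD Q QA QB ten) {W : Type*} [AddCommGroup W] [Module F W]
    (φ : A →ₗ[F] B →ₗ[F] W) (a : A) (b : B) : h.tl φ (ten a b) = φ a b := by
  simp [TD.tl, h.e_symm]

/-- The tensor product of two linear automorphisms. -/
noncomputable def TD.tm (h : TD Q QA QB ten) (α : A ≃ₗ[F] A) (β : B ≃ₗ[F] B) : V ≃ₗ[F] V :=
  (h.e.symm.trans (TensorProduct.congr α β)).trans h.e

theorem TD.tm_ten (h : TD Q QA QB ten) (α : A ≃ₗ[F] A) (β : B ≃ₗ[F] B) (a : A) (b : B) :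
    h.tm α β (ten a b) = ten (α a) (β b) := by
  simp [TD.tm, h.e_symm, h.e_tmul]

theorem TD.tm_mul (h : TD Q QA QB ten) (α α' : A ≃ₗ[F] A) (β β' : B ≃ₗ[F] B) :
    h.tm (α * α') (β * β') = h.tm α β * h.tm α' β' := by
  refine h.ext_equiv fun a b => ?_
  rw [LinearEquiv.mul_apply, h.tm_ten, h.tm_ten, h.tm_ten]
  rfl

theorem TD.tm_one (h : TD Q QA QB ten) : h.tm 1 1 = 1 := by
  refine h.ext_equiv fun a b => ?_
  rw [h.tm_ten]
  rfl

theorem TD.tm_inv (h : TD Q QA QB ten) (α : A ≃ₗ[F] A) (β : B ≃ₗ[F] B) :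
    (h.tm α β)⁻¹ = h.tm α⁻¹ β⁻¹ := by
  rw [inv_eq_iff_mul_eq_one, ← h.tm_mul, mul_inv_cancel, mul_inv_cancel, h.tm_one]

/-- The flipped decomposition. -/
theorem TD.flip (h : TD Q QA QB ten) : TD Q QB QA ten.flip where
  two := h.two
  form b a b' a' := by
    simp only [LinearMap.flip_apply]
    rw [h.form, mul_comm]
  bij := by
    have e : (TensorProduct.lift ten.flip : TensorProduct F B A →ₗ[F] V) =
        TensorProduct.lift ten ∘ₗ (TensorProduct.comm F B A).toLinearMap := by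
      apply TensorProduct.ext'
      intro b a
      simp
    rw [e, LinearMap.coe_comp]
    exact h.bij.comp (TensorProduct.comm F B A).bijective
  nA := h.nB
  nB := h.nA

theorem TD.Q_ten (h : TD Q QA QB ten) (a : A) (b : B) : Q (ten a b) = 2 * QA a * QB b := by
  have h1 := polar_self' (Q := Q) (ten a b)
  rw [h.form, polar_self', polar_self'] at h1
  have h2 : (2 : F) * (Q (ten a b)) = 2 * (2 * QA a * QB b) := by rw [← h1]; ring
  exact mul_left_cancel₀ h.two h2

/-- Two bilinear forms agreeing on pure tensors are equal. -/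
theorem TD.ext₂ (h : TD Q QA QB ten) {W : Type*} [AddCommGroup W] [Module F W]
    {M N : V →ₗ[F] V →ₗ[F] W}
    (hMN : ∀ a b a' b', M (ten a b) (ten a' b') = N (ten a b) (ten a' b')) : M = N :=
  h.ext fun a b => h.ext fun a' b' => hMN a b a' b'

theorem TD.tm_mem_O (h : TD Q QA QB ten) {α : A ≃ₗ[F] A} {β : B ≃ₗ[F] B} (hα : α ∈ O QA)
    (hβ : β ∈ O QB) : h.tm α β ∈ O Q := by
  have h1 : (polarBilin Q).compl₁₂ (h.tm α β).toLinearMap (h.tm α β).toLinearMap = polarBilin Q := by
    refine h.ext₂ fun a b a' b' => ?_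
    simp only [LinearMap.compl₁₂_apply, LinearEquiv.coe_coe, polarBilin_apply_apply]
    rw [h.tm_ten, h.tm_ten, h.form, h.form, polar_map hα, polar_map hβ]
  intro v
  have h2 := LinearMap.congr_fun₂ h1 v v
  simp only [LinearMap.compl₁₂_apply, LinearEquiv.coe_coe, polarBilin_apply_apply] at h2
  rw [polar_self', polar_self'] at h2
  exact mul_left_cancel₀ h.two h2

/-- The adjoint of `a ↦ ten a b`. -/
noncomputable def TD.pb (h : TD Q QA QB ten) (b : B) : V →ₗ[F] A :=
  h.tl (LinearMap.mk₂ F (fun a b' => polar QB b b' • a)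
    (fun a a' b' => smul_add _ _ _) (fun c a b' => smul_comm _ _ _)
    (fun a b' b'' => by rw [polar_add_right, add_smul])
    (fun c a b' => by rw [polar_smul_right, smul_assoc]))

theorem TD.pb_ten (h : TD Q QA QB ten) (b : B) (a : A) (b' : B) :
    h.pb b (ten a b') = polar QB b b' • a := by
  rw [TD.pb, h.tl_ten]
  rfl

theorem TD.pb_add (h : TD Q QA QB ten) (b b' : B) (v : V) :
    h.pb (b + b') v = h.pb b v + h.pb b' v := by
  have : h.pb (b + b') = h.pb b + h.pb b' := by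
    refine h.ext fun a b'' => ?_
    rw [LinearMap.add_apply, h.pb_ten, h.pb_ten, h.pb_ten, polar_add_left, add_smul]
  rw [this]
  rfl

theorem TD.pb_smul (h : TD Q QA QB ten) (c : F) (b : B) (v : V) :
    h.pb (c • b) v = c • h.pb b v := by
  have : h.pb (c • b) = c • h.pb b := by
    refine h.ext fun a b'' => ?_
    rw [LinearMap.smul_apply, h.pb_ten, h.pb_ten, polar_smul_left, smul_assoc]
  rw [this]
  rfl

theorem TD.polar_pb (h : TD Q QA QB ten) (b : B) (v : V) (a : A) :
    polar QA (h.pb b v) a = polar Q v (ten a b) := by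
  have : (polarBilin QA).flip a ∘ₗ h.pb b = (polarBilin Q).flip (ten a b) := by
    refine h.ext fun a' b' => ?_
    simp only [LinearMap.comp_apply, LinearMap.flip_apply, polarBilin_apply_apply]
    rw [h.pb_ten, h.form, polar_smul_left, smul_eq_mul, polar_comm QB b b', mul_comm]
  exact LinearMap.congr_fun this v

theorem TD.polar_pb' (h : TD Q QA QB ten) (b : B) (v : V) (a : A) :
    polar QA a (h.pb b v) = polar Q (ten a b) v := by
  rw [polar_comm, h.polar_pb, polar_comm]

/-- A hyperbolic basis of a three-dimensional quadratic space. -/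
structure HB (QB : QuadraticForm F B) (b1 b2 b3 : B) : Prop where
  hyp : Hyp QB b1 b3
  p12 : polar QB b1 b2 = 0
  p32 : polar QB b3 b2 = 0
  q2 : QB b2 ≠ 0
  span : ∀ y, y = polar QB b3 y • b1 + ((2 * QB b2)⁻¹ * polar QB b2 y) • b2 + polar QB b1 y • b3

namespace HB

variable {b1 b2 b3 : B}

theorem p21 (hb : HB QB b1 b2 b3) : polar QB b2 b1 = 0 := by rw [polar_comm]; exact hb.p12

theorem p23 (hb : HB QB b1 b2 b3) : polar QB b2 b3 = 0 := by rw [polar_comm]; exact hb.p32

theorem p13 (hb : HB QB b1 b2 b3) : polar QB b1 b3 = 1 := hb.hyp.pair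

theorem p31 (hb : HB QB b1 b2 b3) : polar QB b3 b1 = 1 := hb.hyp.pair'

theorem p11 (hb : HB QB b1 b2 b3) : polar QB b1 b1 = 0 := hb.hyp.polar_left

theorem p33 (hb : HB QB b1 b2 b3) : polar QB b3 b3 = 0 := hb.hyp.polar_right

theorem p22 (_ : HB QB b1 b2 b3) : polar QB b2 b2 = 2 * QB b2 := polar_self' _

theorem symm (hb : HB QB b1 b2 b3) : HB QB b3 b2 b1 where
  hyp := hb.hyp.symm
  p12 := hb.p32
  p32 := hb.p12
  q2 := hb.q2
  span y := by
    conv_lhs => rw [hb.span y]
    abel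

theorem map (hb : HB QB b1 b2 b3) {g : B ≃ₗ[F] B} (hg : g ∈ O QB) :
    HB QB (g b1) (g b2) (g b3) where
  hyp := hb.hyp.map hg
  p12 := by rw [polar_map hg, hb.p12]
  p32 := by rw [polar_map hg, hb.p32]
  q2 := by rw [hg]; exact hb.q2
  span y := by
    obtain ⟨y, rfl⟩ := g.surjective y
    rw [polar_map hg, polar_map hg, polar_map hg, hg, ← map_smul, ← map_smul, ← map_smul,
      ← map_add, ← map_add, ← hb.span y]

end HB

/-- Every non-zero singular vector of a three-dimensional space is in a hyperbolic basis. -/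
theorem exists_HB (h2 : (2 : F) ≠ 0) (hB : Nondeg QB)
    (hd : Module.finrank F B = 3) {b1 : B} (hb : QB b1 = 0) (h0 : b1 ≠ 0) :
    ∃ b2 b3, HB QB b1 b2 b3 := by
  obtain ⟨b3, hyp⟩ := exists_hyp hB hb h0
  obtain ⟨b2, hb20, hb2⟩ := exists_perp_ne (Q := QB) ![b1, b3] (by omega)
  have h12 : polar QB b1 b2 = 0 := hb2 0
  have h32 : polar QB b3 b2 = 0 := hb2 1
  have h21 : polar QB b2 b1 = 0 := by rw [polar_comm]; exact h12
  have h23 : polar QB b2 b3 = 0 := by rw [polar_comm]; exact h32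
  have hli : LinearIndependent F ![b1, b2, b3] := by
    rw [Fintype.linearIndependent_iff]
    intro c hc
    rw [Fin.sum_univ_three] at hc
    replace hc : c 0 • b1 + c 1 • b2 + c 2 • b3 = 0 := hc
    have e1 : c 2 = 0 := by
      have := congrArg (polar QB b1) hc
      rw [polar_add_right, polar_add_right, polar_smul_right, polar_smul_right, polar_smul_right,
        hyp.polar_left, h12, hyp.pair, polar_zero_right] at this
      simpa using this
    have e2 : c 0 = 0 := by
      have := congrArg (polar QB b3) hc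
      rw [polar_add_right, polar_add_right, polar_smul_right, polar_smul_right, polar_smul_right,
        hyp.polar_right, h32, hyp.pair', polar_zero_right] at this
      simpa using this
    rw [e1, e2, zero_smul, zero_smul, zero_add, add_zero] at hc
    have e3 : c 1 = 0 := (smul_eq_zero.1 hc).resolve_right hb20
    intro i
    fin_cases i
    · exact e2
    · exact e3
    · exact e1
  have hspan := hli.span_eq_top_of_card_eq_finrank (by rw [hd]; rfl)
  have key : ∀ y : B, ∃ c1 c2 c3 : F, y = c1 • b1 + c2 • b2 + c3 • b3 := by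
    intro y
    have hy : y ∈ Submodule.span F (Set.range ![b1, b2, b3]) := by rw [hspan]; trivial
    obtain ⟨c, hc⟩ := (Submodule.mem_span_range_iff_exists_fun F).1 hy
    rw [Fin.sum_univ_three] at hc
    exact ⟨c 0, c 1, c 2, hc.symm⟩
  have hq2 : QB b2 ≠ 0 := by
    intro hq
    apply hb20
    apply hB
    intro y
    obtain ⟨c1, c2, c3, rfl⟩ := key y
    rw [polar_add_right, polar_add_right, polar_smul_right, polar_smul_right, polar_smul_right,
      h21, h23, polar_self_of_sing hq]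
    simp
  refine ⟨b2, b3, hyp, h12, h32, hq2, fun y => ?_⟩
  obtain ⟨c1, c2, c3, rfl⟩ := key y
  have hq : (2 * QB b2) ≠ 0 := mul_ne_zero h2 hq2
  rw [polar_add_right, polar_add_right, polar_smul_right, polar_smul_right, polar_smul_right,
    polar_add_right, polar_add_right, polar_smul_right, polar_smul_right, polar_smul_right,
    polar_add_right, polar_add_right, polar_smul_right, polar_smul_right, polar_smul_right,
    hyp.polar_left, hyp.polar_right, hyp.pair, hyp.pair', h12, h21, h32, h23, polar_self']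
  simp only [smul_eq_mul, mul_zero, zero_add, add_zero, mul_one]
  rw [mul_comm c2, ← mul_assoc, inv_mul_cancel₀ hq, one_mul]

section dec

variable {b1 b2 b3 : B}

/-- Coordinates with respect to a hyperbolic basis of `B`. -/
theorem TD.decomp (h : TD Q QA QB ten) (hb : HB QB b1 b2 b3) (v : V) :
    v = ten (h.pb b3 v) b1 + ten ((2 * QB b2)⁻¹ • h.pb b2 v) b2 + ten (h.pb b1 v) b3 := by
  have e : (LinearMap.id : V →ₗ[F] V) = (ten.flip b1) ∘ₗ h.pb b3 +
      (ten.flip b2) ∘ₗ ((2 * QB b2)⁻¹ • h.pb b2) + (ten.flip b3) ∘ₗ h.pb b1 := by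
    refine h.ext fun a b => ?_
    simp only [LinearMap.id_apply, LinearMap.add_apply, LinearMap.comp_apply,
      LinearMap.flip_apply, LinearMap.smul_apply]
    rw [h.pb_ten, h.pb_ten, h.pb_ten]
    conv_lhs => rw [hb.span b]
    simp only [map_add, map_smul, LinearMap.smul_apply, smul_smul]
  have := LinearMap.congr_fun e v
  simpa only [LinearMap.id_apply, LinearMap.add_apply, LinearMap.comp_apply,
      LinearMap.flip_apply, LinearMap.smul_apply] using this

theorem TD.pb_self1 (h : TD Q QA QB ten) (hb : HB QB b1 b2 b3) (x y z : A) :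
    h.pb b1 (ten x b1 + ten y b2 + ten z b3) = z := by
  simp only [map_add, h.pb_ten, hb.p11, hb.p12, hb.p13, zero_smul, one_smul, zero_add]

theorem TD.pb_self3 (h : TD Q QA QB ten) (hb : HB QB b1 b2 b3) (x y z : A) :
    h.pb b3 (ten x b1 + ten y b2 + ten z b3) = x := by
  simp only [map_add, h.pb_ten, hb.p31, hb.p32, hb.p33, zero_smul, one_smul, add_zero]

theorem TD.pb_self2 (h : TD Q QA QB ten) (hb : HB QB b1 b2 b3) (x y z : A) :
    h.pb b2 (ten x b1 + ten y b2 + ten z b3) = (2 * QB b2) • y := by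
  simp only [map_add, h.pb_ten, hb.p21, hb.p22, hb.p23, zero_smul, zero_add, add_zero]

theorem TD.ten_inj (h : TD Q QA QB ten) {b : B} (hb : b ≠ 0) {x y : A} (e : ten x b = ten y b) :
    x = y := by
  obtain ⟨b', hb'⟩ := h.nB.exists_polar_eq hb 1
  have := congrArg (h.pb b') e
  rw [h.pb_ten, h.pb_ten, polar_comm, hb', one_smul, one_smul] at this
  exact this

theorem TD.coord_inj (h : TD Q QA QB ten) (hb : HB QB b1 b2 b3) {x y z x' y' z' : A}
    (e : ten x b1 + ten y b2 + ten z b3 = ten x' b1 + ten y' b2 + ten z' b3) :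
    x = x' ∧ y = y' ∧ z = z' := by
  refine ⟨?_, ?_, ?_⟩
  · have := congrArg (h.pb b3) e
    rwa [h.pb_self3 hb, h.pb_self3 hb] at this
  · have := congrArg (h.pb b2) e
    rw [h.pb_self2 hb, h.pb_self2 hb] at this
    exact smul_right_injective A (mul_ne_zero h.two hb.q2) this
  · have := congrArg (h.pb b1) e
    rwa [h.pb_self1 hb, h.pb_self1 hb] at this

end dec

/-- Decomposable elements. -/
def Dec (ten : A →ₗ[F] B →ₗ[F] V) (g : V ≃ₗ[F] V) : Prop :=
  ∃ (α : A ≃ₗ[F] A) (β : B ≃ₗ[F] B), ∀ a b, g (ten a b) = ten (α a) (β b)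

/-- Elements swapping the factors. -/
def Sw (ten : A →ₗ[F] B →ₗ[F] V) (g : V ≃ₗ[F] V) : Prop :=
  ∃ (σ : B ≃ₗ[F] A) (τ : A ≃ₗ[F] B), ∀ a b, g (ten a b) = ten (σ b) (τ a)

theorem Dec.mul {g g' : V ≃ₗ[F] V} (hg : Dec ten g) (hg' : Dec ten g') : Dec ten (g * g') := by
  obtain ⟨α, β, h⟩ := hg
  obtain ⟨α', β', h'⟩ := hg'
  refine ⟨α * α', β * β', fun a b => ?_⟩
  rw [LinearEquiv.mul_apply, h', h]
  rfl

theorem Dec.inv {g : V ≃ₗ[F] V} (hg : Dec ten g) : Dec ten g⁻¹ := by
  obtain ⟨α, β, h⟩ := hg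
  refine ⟨α⁻¹, β⁻¹, fun a b => ?_⟩
  have h1 := h (α⁻¹ a) (β⁻¹ b)
  have e1 : α (α⁻¹ a) = a := LinearEquiv.apply_symm_apply α a
  have e2 : β (β⁻¹ b) = b := LinearEquiv.apply_symm_apply β b
  rw [e1, e2] at h1
  rw [← h1]
  exact LinearEquiv.symm_apply_apply g _

theorem Dec.mul_sw {g g' : V ≃ₗ[F] V} (hg : Dec ten g) (hg' : Sw ten g') : Sw ten (g * g') := by
  obtain ⟨α, β, h⟩ := hg
  obtain ⟨σ, τ, h'⟩ := hg'
  refine ⟨σ.trans α, τ.trans β, fun a b => ?_⟩
  rw [LinearEquiv.mul_apply, h', h]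
  rfl

theorem Sw.mul_dec {g g' : V ≃ₗ[F] V} (hg : Sw ten g) (hg' : Dec ten g') : Sw ten (g * g') := by
  obtain ⟨σ, τ, h⟩ := hg
  obtain ⟨α, β, h'⟩ := hg'
  refine ⟨β.trans σ, α.trans τ, fun a b => ?_⟩
  rw [LinearEquiv.mul_apply, h', h]
  rfl

theorem Sw.mul {g g' : V ≃ₗ[F] V} (hg : Sw ten g) (hg' : Sw ten g') : Dec ten (g * g') := by
  obtain ⟨σ, τ, h⟩ := hg
  obtain ⟨σ', τ', h'⟩ := hg'
  refine ⟨τ'.trans σ, σ'.trans τ, fun a b => ?_⟩
  rw [LinearEquiv.mul_apply, h', h]
  rfl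

theorem Sw.inv {g : V ≃ₗ[F] V} (hg : Sw ten g) : Sw ten g⁻¹ := by
  obtain ⟨σ, τ, h⟩ := hg
  refine ⟨τ.symm, σ.symm, fun a b => ?_⟩
  have h1 := h (τ.symm b) (σ.symm a)
  rw [LinearEquiv.apply_symm_apply, LinearEquiv.apply_symm_apply] at h1
  rw [← h1]
  exact LinearEquiv.symm_apply_apply g _

theorem TD.dec_tm (h : TD Q QA QB ten) (α : A ≃ₗ[F] A) (β : B ≃ₗ[F] B) : Dec ten (h.tm α β) :=
  ⟨α, β, h.tm_ten α β⟩

/-- Polynomials of degree at most four vanishing on a field with at least five elements. -/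
theorem coeff_zero [Finite F] (hF : 5 ≤ Nat.card F) {c0 c1 c2 c3 c4 : F}
    (h : ∀ t : F, c0 + c1 * t + c2 * t ^ 2 + c3 * t ^ 3 + c4 * t ^ 4 = 0) :
    c0 = 0 ∧ c1 = 0 ∧ c2 = 0 ∧ c3 = 0 ∧ c4 = 0 := by
  have : Fintype F := Fintype.ofFinite F
  rw [Nat.card_eq_fintype_card] at hF
  open Polynomial in
  let p : F[X] := C c0 + C c1 * X + C c2 * X ^ 2 + C c3 * X ^ 3 + C c4 * X ^ 4
  have hdeg : p.natDegree ≤ 4 := by
    simp only [p]
    compute_degree
  have hp : p = 0 := by
    apply Polynomial.eq_zero_of_natDegree_lt_card_of_eval_eq_zero p (ι := F) (f := id)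
      Function.injective_id
    · intro t
      simp only [p, id, Polynomial.eval_add, Polynomial.eval_mul, Polynomial.eval_C,
        Polynomial.eval_X, Polynomial.eval_pow]
      exact h t
    · omega
  have hc : ∀ n, p.coeff n = 0 := by
    intro n
    rw [hp, Polynomial.coeff_zero]
  have h0 := hc 0
  have h1 := hc 1
  have h2 := hc 2
  have h3 := hc 3
  have h4 := hc 4
  simp [p, Polynomial.coeff_X, Polynomial.coeff_C] at h0 h1 h2 h3 h4
  exact ⟨h0, h1, h2, h3, h4⟩

end Cfsg.Agent.H922.Ten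
end

-- part: H922/TenRoot
section
/-!
Tensor decompositions `V = A ⊗ B`, `dim A = dim B = 3`: a group containing the decomposable part of
`E Q` and one element of `Z(R(A ⊗ b))` is the whole of `E Q`.
-/

set_option autoImplicit false
set_option linter.unusedSectionVars false

namespace Cfsg.Agent.H922.Ten

open QuadraticMap Cfsg.Agent.LieClassical.OrthCore Cfsg.Agent.LieClassical.OrthTrans
  Cfsg.Agent.LieClassical.OrthSimple Cfsg.Agent.ClassicalGeometry.OrthAutBasic
  Cfsg.Agent.H887.SiegelMethod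

variable {F V A B : Type*} [Field F] [AddCommGroup V] [Module F V] [AddCommGroup A] [Module F A]
  [AddCommGroup B] [Module F B] {Q : QuadraticForm F V} {QA : QuadraticForm F A}
  {QB : QuadraticForm F B} {ten : A →ₗ[F] B →ₗ[F] V}

/-! ### squares -/

theorem sq_mem_E (hG : Good Q) {g : V ≃ₗ[F] V} (hg : g ∈ O Q) : g * g ∈ E Q := by
  have : FiniteDimensional F V := Module.finite_of_finrank_pos (by have := hG.dim; omega)
  have hO := O_eq_closure hG.nondeg
  have key : ∀ g ∈ Subgroup.closure (reflSet Q ∪ siegelSet Q), g * g ∈ E Q := by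
    intro g hg
    induction hg using Subgroup.closure_induction with
    | mem x hx =>
      rcases hx with ⟨v, hv, rfl⟩ | ⟨u, w, hu, hw, rfl⟩
      · rw [refl_mul_self]
        exact Subgroup.one_mem _
      · exact (E Q).mul_mem (siegel_mem_E hu hw) (siegel_mem_E hu hw)
    | one => simp
    | mul x y hx hy ihx ihy =>
      rw [← hO] at hx hy
      have e : x * y * (x * y) = (x * x) * (x⁻¹ * y * x⁻¹⁻¹ * y⁻¹) * (y * y) := by
        group
      rw [e]
      refine (E Q).mul_mem ((E Q).mul_mem ihx ?_) ihy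
      have hc := Subgroup.commutator_mem_commutator ((O Q).inv_mem hx) hy
      rw [commutatorElement_def] at hc
      exact hG.commutator_le_E hc
    | inv x hx ihx =>
      have e : x⁻¹ * x⁻¹ = (x * x)⁻¹ := by group
      rw [e]
      exact (E Q).inv_mem ihx
  rw [hO] at hg
  exact key g hg

theorem mem_E_of_pow (hG : Good Q) {g : V ≃ₗ[F] V} (hg : g ∈ O Q) {p : ℕ} (hp : Odd p)
    (h : g ^ p = 1) : g ∈ E Q := by
  obtain ⟨k, rfl⟩ := hp
  have e : g = g ^ (k + 1) * g ^ (k + 1) := by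
    rw [← pow_add]
    have : k + 1 + (k + 1) = (2 * k + 1) + 1 := by ring
    rw [this, pow_succ, h, one_mul]
  rw [e]
  exact sq_mem_E hG ((O Q).pow_mem hg _)

theorem TD.flip_tm (h : TD Q QA QB ten) (α : A ≃ₗ[F] A) (β : B ≃ₗ[F] B) :
    h.flip.tm β α = h.tm α β := by
  refine h.ext_equiv fun a b => ?_
  rw [h.tm_ten]
  exact h.flip.tm_ten β α b a

theorem TD.tm_T_mem_E (h : TD Q QA QB ten) (hG : Good Q) (a w : A) :
    h.tm (T QA a w) 1 ∈ E Q := by
  by_cases haw : QA a = 0 ∧ polar QA a w = 0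
  · obtain ⟨ha, hw⟩ := haw
    have e : T QA a w = T QA a ((2 : F)⁻¹ • w) * T QA a ((2 : F)⁻¹ • w) := by
      rw [T_mul ha (by rw [polar_smul_right, hw, smul_zero])
        (by rw [polar_smul_right, hw, smul_zero]), ← add_smul]
      congr 1
      rw [← two_mul, mul_inv_cancel₀ h.two, one_smul]
    have e1 : (1 : B ≃ₗ[F] B) = 1 * 1 := (one_mul 1).symm
    rw [e, e1, h.tm_mul]
    exact sq_mem_E hG (h.tm_mem_O (T_mem_O _ _) (Subgroup.one_mem _))
  · rw [T_eq_one haw, h.tm_one]
    exact Subgroup.one_mem _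

theorem TD.tm_T_mem_E' (h : TD Q QA QB ten) (hG : Good Q) (b w : B) :
    h.tm 1 (T QB b w) ∈ E Q := by
  rw [← h.flip_tm]
  exact h.flip.tm_T_mem_E hG b w

/-- The overgroup situation. -/
structure Ov (Q : QuadraticForm F V) (ten : A →ₗ[F] B →ₗ[F] V) (L : Subgroup (V ≃ₗ[F] V)) :
    Prop where
  le : L ≤ E Q
  dec : ∀ g ∈ E Q, Dec ten g → g ∈ L

theorem Ov.tA (h : TD Q QA QB ten) {L : Subgroup (V ≃ₗ[F] V)} (hL : Ov Q ten L) (hG : Good Q)
    (a w : A) : h.tm (T QA a w) 1 ∈ L :=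
  hL.dec _ (h.tm_T_mem_E hG a w) (h.dec_tm _ _)

theorem Ov.tB (h : TD Q QA QB ten) {L : Subgroup (V ≃ₗ[F] V)} (hL : Ov Q ten L) (hG : Good Q)
    (b w : B) : h.tm 1 (T QB b w) ∈ L :=
  hL.dec _ (h.tm_T_mem_E' hG b w) (h.dec_tm _ _)

theorem Ov.leO {L : Subgroup (V ≃ₗ[F] V)} (hL : Ov Q ten L) : L ≤ O Q := hL.le.trans E_le_O

/-! ### wedges -/

/-- `x ∧ y` as an operator on `A`. -/
def wd (QA : QuadraticForm F A) (x y : A) : A →ₗ[F] A :=
  (polarBilin QA x).smulRight y - (polarBilin QA y).smulRight x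

theorem wd_apply (x y v : A) : wd QA x y v = polar QA x v • y - polar QA y v • x := by
  simp [wd]

theorem wd_self (x : A) : wd QA x x = 0 := by
  ext v
  rw [wd_apply, sub_self]
  rfl

theorem wd_add_left (x x' y : A) : wd QA (x + x') y = wd QA x y + wd QA x' y := by
  ext v
  simp only [LinearMap.add_apply, wd_apply, polar_add_left, add_smul, smul_add]
  abel

theorem wd_add_right (x y y' : A) : wd QA x (y + y') = wd QA x y + wd QA x y' := by
  ext v
  simp only [LinearMap.add_apply, wd_apply, polar_add_left, add_smul, smul_add]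
  abel

theorem wd_smul_left (c : F) (x y : A) : wd QA (c • x) y = c • wd QA x y := by
  ext v
  simp only [LinearMap.smul_apply, wd_apply, polar_smul_left, smul_sub, smul_smul, smul_eq_mul]
  rw [mul_comm (polar QA y v) c]

theorem wd_smul_right (c : F) (x y : A) : wd QA x (c • y) = c • wd QA x y := by
  ext v
  simp only [LinearMap.smul_apply, wd_apply, polar_smul_left, smul_sub, smul_smul, smul_eq_mul]
  rw [mul_comm (polar QA x v) c]

theorem wd_swap (x y : A) : wd QA y x = - wd QA x y := by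
  ext v
  simp only [LinearMap.neg_apply, wd_apply]
  abel

theorem wd_conj {u : A ≃ₗ[F] A} (hu : u ∈ O QA) (x y : A) :
    u.toLinearMap ∘ₗ wd QA x y ∘ₗ (u⁻¹ : A ≃ₗ[F] A).toLinearMap = wd QA (u x) (u y) := by
  ext v
  obtain ⟨v, rfl⟩ := u.surjective v
  have e : (u⁻¹ : A ≃ₗ[F] A) (u v) = v := LinearEquiv.symm_apply_apply u v
  simp only [LinearMap.comp_apply, LinearEquiv.coe_coe, e, wd_apply, polar_map hu, map_sub,
    map_smul]

/-! ### the group `Z(R(A ⊗ b)) ∩ L` -/

theorem TD.pb_tm (h : TD Q QA QB ten) (α : A ≃ₗ[F] A) {β : B ≃ₗ[F] B} (hβ : β ∈ O QB) (b : B)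
    (v : V) : h.pb (β b) (h.tm α β v) = α (h.pb b v) := by
  have : (h.pb (β b)) ∘ₗ (h.tm α β).toLinearMap = α.toLinearMap ∘ₗ h.pb b := by
    refine h.ext fun a b' => ?_
    simp only [LinearMap.comp_apply, LinearEquiv.coe_coe]
    rw [h.tm_ten, h.pb_ten, h.pb_ten, polar_map hβ, map_smul]
  exact LinearMap.congr_fun this v

/-- The operators `s` on `A` such that `1 + s ⊗ n_b` is in `L`. -/
def RN (h : TD Q QA QB ten) (L : Subgroup (V ≃ₗ[F] V)) (b : B) (hb : QB b = 0) :
    AddSubgroup (A →ₗ[F] A) where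
  carrier := {s | ∃ g ∈ L, ∀ v, g v = v + ten (s (h.pb b v)) b}
  zero_mem' := ⟨1, L.one_mem, fun v => by simp⟩
  add_mem' := by
    rintro s s' ⟨g, hg, hs⟩ ⟨g', hg', hs'⟩
    refine ⟨g * g', L.mul_mem hg hg', fun v => ?_⟩
    rw [LinearEquiv.mul_apply, hs, hs', map_add, h.pb_ten, polar_self_of_sing hb, zero_smul,
      add_zero, LinearMap.add_apply, map_add, LinearMap.add_apply]
    abel
  neg_mem' := by
    rintro s ⟨g, hg, hs⟩
    refine ⟨g⁻¹, L.inv_mem hg, fun v => ?_⟩
    have h1 := hs (v + ten ((-s) (h.pb b v)) b)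
    have h2 : g (v + ten ((-s) (h.pb b v)) b) = v := by
      rw [h1, map_add, h.pb_ten, polar_self_of_sing hb, zero_smul, add_zero, LinearMap.neg_apply,
        map_neg, LinearMap.neg_apply]
      abel
    have h3 := congrArg (g⁻¹ : V ≃ₗ[F] V) h2
    have h4 : (g⁻¹ : V ≃ₗ[F] V) (g (v + ten ((-s) (h.pb b v)) b)) = v + ten ((-s) (h.pb b v)) b :=
      LinearEquiv.symm_apply_apply g _
    rw [h4] at h3
    exact h3.symm

theorem mem_RN {h : TD Q QA QB ten} {L : Subgroup (V ≃ₗ[F] V)} {b : B} {hb : QB b = 0}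
    {s : A →ₗ[F] A} : s ∈ RN h L b hb ↔ ∃ g ∈ L, ∀ v, g v = v + ten (s (h.pb b v)) b := Iff.rfl

theorem RN_conj (h : TD Q QA QB ten) {L : Subgroup (V ≃ₗ[F] V)} (hL : Ov Q ten L) (hG : Good Q)
    {b : B} {hb : QB b = 0} (a w : A) {s : A →ₗ[F] A} (hs : s ∈ RN h L b hb) :
    (T QA a w).toLinearMap ∘ₗ s ∘ₗ ((T QA a w)⁻¹ : A ≃ₗ[F] A).toLinearMap ∈ RN h L b hb := by
  obtain ⟨g, hg, hs⟩ := hs
  set u := T QA a w
  have hu : u ∈ O QA := T_mem_O _ _
  have hL1 : h.tm u 1 ∈ L := hL.tA h hG a w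
  refine ⟨h.tm u 1 * g * (h.tm u 1)⁻¹, L.mul_mem (L.mul_mem hL1 hg) (L.inv_mem hL1), fun v => ?_⟩
  obtain ⟨v, rfl⟩ := (h.tm u 1).surjective v
  have e : (h.tm u 1)⁻¹ ((h.tm u 1) v) = v := LinearEquiv.symm_apply_apply _ v
  rw [LinearEquiv.mul_apply, LinearEquiv.mul_apply, e, hs, map_add, h.tm_ten]
  have e2 : h.pb b (h.tm u 1 v) = u (h.pb b v) :=
    h.pb_tm u (Subgroup.one_mem (O QB)) b v
  have e3 : (u⁻¹ : A ≃ₗ[F] A) (u (h.pb b v)) = h.pb b v := LinearEquiv.symm_apply_apply u _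
  rw [e2]
  simp only [LinearMap.comp_apply, LinearEquiv.coe_coe, e3]
  rfl

variable {a1 a2 a3 : A}

theorem T_HB_one (hb : HB QA a1 a2 a3) (c : F) : T QA a1 (c • a2) a1 = a1 :=
  T_apply_self hb.hyp.left (by rw [polar_smul_right, hb.p12, smul_zero])

theorem T_HB_two (hb : HB QA a1 a2 a3) (c : F) :
    T QA a1 (c • a2) a2 = a2 - (c * (2 * QA a2)) • a1 := by
  rw [T_apply hb.hyp.left (by rw [polar_smul_right, hb.p12, smul_zero]), hb.p12,
    polar_smul_left, hb.p22]
  simp

theorem T_HB_three (hb : HB QA a1 a2 a3) (c : F) :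
    T QA a1 (c • a2) a3 = a3 + c • a2 - (c ^ 2 * QA a2) • a1 := by
  rw [T_apply hb.hyp.left (by rw [polar_smul_right, hb.p12, smul_zero]), hb.p13,
    polar_smul_left, hb.p23, QuadraticMap.map_smul]
  simp only [smul_eq_mul, mul_zero, zero_smul, one_smul, mul_one, sub_zero]
  rw [pow_two]

/-- From an operator with non-zero `a2 ∧ a3` coordinate we get the whole `F (a1 ∧ a2)`. -/
theorem RN_step (h : TD Q QA QB ten) {L : Subgroup (V ≃ₗ[F] V)} (hL : Ov Q ten L) (hG : Good Q)
    {b : B} {hb : QB b = 0} (ha : HB QA a1 a2 a3) {x y z : F} (hz : z ≠ 0)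
    (hs : x • wd QA a1 a2 + y • wd QA a1 a3 + z • wd QA a2 a3 ∈ RN h L b hb) (t : F) :
    t • wd QA a1 a2 ∈ RN h L b hb := by
  -- conjugation by `T a1 (c a2)`
  have conj : ∀ (x y z c : F), x • wd QA a1 a2 + y • wd QA a1 a3 + z • wd QA a2 a3 ∈ RN h L b hb →
      (y * c - z * c ^ 2 * QA a2) • wd QA a1 a2 + (- z * c * (2 * QA a2)) • wd QA a1 a3 ∈
        RN h L b hb := by
    intro x y z c hs
    have h1 := RN_conj h hL hG a1 (c • a2) hs
    have h2 := (RN h L b hb).sub_mem h1 hs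
    have hu : T QA a1 (c • a2) ∈ O QA := T_mem_O _ _
    have e : (T QA a1 (c • a2)).toLinearMap ∘ₗ (x • wd QA a1 a2 + y • wd QA a1 a3 +
        z • wd QA a2 a3) ∘ₗ ((T QA a1 (c • a2))⁻¹ : A ≃ₗ[F] A).toLinearMap -
        (x • wd QA a1 a2 + y • wd QA a1 a3 + z • wd QA a2 a3) =
        (y * c - z * c ^ 2 * QA a2) • wd QA a1 a2 + (- z * c * (2 * QA a2)) • wd QA a1 a3 := by
      have e1 : (T QA a1 (c • a2)).toLinearMap ∘ₗ (x • wd QA a1 a2 + y • wd QA a1 a3 +
        z • wd QA a2 a3) ∘ₗ ((T QA a1 (c • a2))⁻¹ : A ≃ₗ[F] A).toLinearMap =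
          x • wd QA (T QA a1 (c • a2) a1) (T QA a1 (c • a2) a2) +
          y • wd QA (T QA a1 (c • a2) a1) (T QA a1 (c • a2) a3) +
          z • wd QA (T QA a1 (c • a2) a2) (T QA a1 (c • a2) a3) := by
        rw [← wd_conj hu, ← wd_conj hu, ← wd_conj hu]
        simp only [LinearMap.add_comp, LinearMap.comp_add, LinearMap.smul_comp,
          LinearMap.comp_smul]
      rw [e1, T_HB_one ha, T_HB_two ha, T_HB_three ha]
      simp only [sub_eq_add_neg, ← neg_smul, wd_add_left, wd_add_right, wd_smul_left,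
        wd_smul_right, wd_self, wd_swap a1 a2]
      module
    rwa [e] at h2
  have h1 := fun c => conj x y z c hs
  have h2 := fun c => conj (y * c - z * c ^ 2 * QA a2) (- z * c * (2 * QA a2)) 0 1
    (by rw [zero_smul, add_zero]; exact h1 c)
  have hne : z * (2 * QA a2) ≠ 0 := mul_ne_zero hz (mul_ne_zero h.two ha.q2)
  have h3 := h2 (-(t * (z * (2 * QA a2))⁻¹))
  have e : (- z * (-(t * (z * (2 * QA a2))⁻¹)) * (2 * QA a2) * 1 - 0 * 1 ^ 2 * QA a2) = t := by
    have e' : (- z * (-(t * (z * (2 * QA a2))⁻¹)) * (2 * QA a2) * 1 - 0 * 1 ^ 2 * QA a2) =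
      t * ((z * (2 * QA a2))⁻¹ * (z * (2 * QA a2))) := by ring
    rw [e', inv_mul_cancel₀ hne, mul_one]
  rw [e] at h3
  simpa using h3

theorem wd_expand (a1 a2 a3 : A) (x1 x2 x3 y1 y2 y3 : F) :
    wd QA (x1 • a1 + x2 • a2 + x3 • a3) (y1 • a1 + y2 • a2 + y3 • a3) =
      (x1 * y2 - x2 * y1) • wd QA a1 a2 + (x1 * y3 - x3 * y1) • wd QA a1 a3 +
        (x3 * y2 - x2 * y3) • wd QA a3 a2 := by
  simp only [wd_add_left, wd_add_right, wd_smul_left, wd_smul_right, wd_self, wd_swap a1 a2,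
    wd_swap a3 a2, wd_swap a1 a3]
  module

theorem RN_full_of_one (h : TD Q QA QB ten) {L : Subgroup (V ≃ₗ[F] V)} (hL : Ov Q ten L)
    (hG : Good Q) {b : B} {hb : QB b = 0} (ha : HB QA a1 a2 a3)
    (hs : ∀ t : F, t • wd QA a1 a2 ∈ RN h L b hb) (x y : A) : wd QA x y ∈ RN h L b hb := by
  have h12 := hs
  have h32 : ∀ t : F, t • wd QA a3 a2 ∈ RN h L b hb := by
    intro t
    refine RN_step h hL hG ha.symm (x := 0) (y := 0) (z := 1) one_ne_zero ?_ t
    rw [zero_smul, zero_smul, zero_add, zero_add, wd_swap a1 a2, smul_neg]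
    exact (RN h L b hb).neg_mem (h12 1)
  have h13 : ∀ t : F, t • wd QA a1 a3 ∈ RN h L b hb := by
    intro t
    have hδ : (2 * QA a2) ≠ 0 := mul_ne_zero h.two ha.q2
    have hu : T QA a1 ((1 : F) • a2) ∈ O QA := T_mem_O _ _
    have h1 := RN_conj h hL hG a1 ((1 : F) • a2) (h32 (t * (2 * QA a2)⁻¹))
    have e1 : (T QA a1 ((1 : F) • a2)).toLinearMap ∘ₗ ((t * (2 * QA a2)⁻¹) • wd QA a3 a2) ∘ₗ
        ((T QA a1 ((1 : F) • a2))⁻¹ : A ≃ₗ[F] A).toLinearMap =
        (t * (2 * QA a2)⁻¹) • wd QA (T QA a1 ((1 : F) • a2) a3) (T QA a1 ((1 : F) • a2) a2) := by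
      rw [← wd_conj hu]
      simp only [LinearMap.smul_comp, LinearMap.comp_smul]
    rw [e1, T_HB_two ha, T_HB_three ha] at h1
    have e2 : t • wd QA a1 a3 = (t * (2 * QA a2)⁻¹) • wd QA (a3 + (1 : F) • a2 -
        ((1 : F) ^ 2 * QA a2) • a1) (a2 - ((1 : F) * (2 * QA a2)) • a1) -
        (t * (2 * QA a2)⁻¹) • wd QA a3 a2 -
        ((t * (2 * QA a2)⁻¹) * (QA a2)) • wd QA a1 a2 := by
      simp only [sub_eq_add_neg, ← neg_smul, wd_add_left, wd_add_right, wd_smul_left,
        wd_smul_right, wd_self, wd_swap a1 a2, wd_swap a1 a3]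
      match_scalars
      · have e' : t = t * ((2 * QA a2)⁻¹ * (2 * QA a2)) := by
          rw [inv_mul_cancel₀ hδ, mul_one]
        linear_combination e'
      · ring
      · ring
    rw [e2]
    exact (RN h L b hb).sub_mem ((RN h L b hb).sub_mem h1 (h32 _)) (h12 _)
  rw [ha.span x, ha.span y, wd_expand]
  exact (RN h L b hb).add_mem ((RN h L b hb).add_mem (h12 _) (h13 _)) (h32 _)

end Cfsg.Agent.H922.Ten
end

-- part: H922/TenRootTwo
section
/-!
Tensor decompositions `V = A ⊗ B`, `dim A = dim B = 3`: a group containing the decomposable part of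
`E Q` and one element of `Z(R(A ⊗ b))` is the whole of `E Q` (second part).
-/

set_option autoImplicit false
set_option linter.unusedSectionVars false

namespace Cfsg.Agent.H922.Ten

open QuadraticMap Cfsg.Agent.LieClassical.OrthCore Cfsg.Agent.LieClassical.OrthTrans
  Cfsg.Agent.LieClassical.OrthSimple Cfsg.Agent.ClassicalGeometry.OrthAutBasic
  Cfsg.Agent.H887.SiegelMethod

variable {F V A B : Type*} [Field F] [AddCommGroup V] [Module F V] [AddCommGroup A] [Module F A]
  [AddCommGroup B] [Module F B] {Q : QuadraticForm F V} {QA : QuadraticForm F A}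
  {QB : QuadraticForm F B} {ten : A →ₗ[F] B →ₗ[F] V}

variable {a1 a2 a3 : A} {b1 b2 b3 : B}

theorem HB.ext (hb : HB QB b1 b2 b3) {W : Type*} [AddCommGroup W] [Module F W] {f g : B →ₗ[F] W}
    (h1 : f b1 = g b1) (h2 : f b2 = g b2) (h3 : f b3 = g b3) : f = g := by
  ext y
  rw [hb.span y]
  simp only [map_add, map_smul, h1, h2, h3]

/-- Norm in coordinates. -/
theorem HB.Q_eq (hb : HB QB b1 b2 b3) (x y z : F) :
    QB (x • b1 + y • b2 + z • b3) = x * z + y ^ 2 * QB b2 := by
  rw [Q_add, Q_add, QuadraticMap.map_smul, QuadraticMap.map_smul, QuadraticMap.map_smul,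
    polar_smul_left, polar_smul_right, polar_add_left, polar_smul_left, polar_smul_left,
    polar_smul_right, polar_smul_right, hb.p12, hb.p13, hb.p23, hb.hyp.left, hb.hyp.right]
  simp only [smul_eq_mul]
  ring

/-- All singular vectors are obtained from `b1` by Siegel elements and scalars. -/
theorem HB.sing_induction (hb : HB QB b1 b2 b3) {P : B → Prop} (h1 : P b1)
    (hT : ∀ b x w, QB b = 0 → P b → P (T QB x w b)) (hs : ∀ (b : B) (c : F), c ≠ 0 → P b → P (c • b))
    (b' : B) (hb' : QB b' = 0) (h0 : b' ≠ 0) : P b' := by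
  have hgen : ∀ b' : B, QB b' = 0 → b' ≠ 0 → polar QB b3 b' ≠ 0 → P b' := by
    intro b' hb' h0 hy
    have e := hb.span b'
    set y1 := polar QB b3 b' with hy1
    set y2 := (2 * QB b2)⁻¹ * polar QB b2 b' with hy2
    set y3 := polar QB b1 b' with hy3
    have hq : y1 * y3 + y2 ^ 2 * QB b2 = 0 := by rw [← hb.Q_eq, ← e, hb']
    have h2 : b' = y1 • T QB b3 ((y2 * y1⁻¹) • b2) b1 := by
      rw [T_HB_three hb.symm]
      rw [e]
      have e3 : y3 = - (y1 * ((y2 * y1⁻¹) ^ 2 * QB b2)) := by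
        field_simp
        linear_combination hq
      rw [e3]
      match_scalars
      · ring
      · field_simp
      · ring
    rw [h2]
    exact hs _ _ hy (hT _ _ _ hb.hyp.left h1)
  by_cases hy : polar QB b3 b' = 0
  · -- `b'` is a multiple of `b3`
    have e := hb.span b'
    rw [hy, zero_smul, zero_add] at e
    set y2 := (2 * QB b2)⁻¹ * polar QB b2 b' with hy2
    set y3 := polar QB b1 b' with hy3
    have hq : (0 : F) * y3 + y2 ^ 2 * QB b2 = 0 := by
      rw [← hb.Q_eq, zero_smul, zero_add, ← e, hb']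
    have hy20 : y2 = 0 := by
      rw [zero_mul, zero_add] at hq
      have := (mul_eq_zero.1 hq).resolve_right hb.q2
      exact pow_eq_zero_iff (two_ne_zero) |>.1 this
    rw [hy20, zero_smul, zero_add] at e
    have hy30 : y3 ≠ 0 := by
      intro h
      rw [h, zero_smul] at e
      exact h0 e
    rw [e]
    refine hs _ _ hy30 ?_
    -- `b'' = T b1 b2 b3`
    have hb'' : P (T QB b1 ((1 : F) • b2) b3) := by
      refine hgen _ ?_ ?_ ?_
      · rw [mem_O.1 (T_mem_O _ _)]
        exact hb.hyp.right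
      · intro h
        exact hb.hyp.right_ne ((LinearEquiv.map_eq_zero_iff _).1 h)
      · rw [T_HB_three hb, polar_sub_right, polar_add_right, polar_smul_right, polar_smul_right,
          hb.p33, hb.p32, hb.p31]
        simp only [one_pow, one_mul, smul_eq_mul, mul_one, mul_zero, add_zero, zero_sub, ne_eq,
          neg_eq_zero]
        exact hb.q2
    have h5 := hT _ b1 ((-1 : F) • b2) (by
      rw [mem_O.1 (T_mem_O _ _)]
      exact hb.hyp.right) hb''
    have e5 : T QB b1 ((-1 : F) • b2) (T QB b1 ((1 : F) • b2) b3) = b3 := by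
      have := T_mul (Q := QB) hb.hyp.left (w := (-1 : F) • b2) (w' := (1 : F) • b2)
        (by rw [polar_smul_right, hb.p12, smul_zero])
        (by rw [polar_smul_right, hb.p12, smul_zero])
      rw [← LinearEquiv.mul_apply, this, ← add_smul, neg_add_cancel, zero_smul, T_zero_right]
      rfl
    rwa [e5] at h5
  · exact hgen b' hb' h0 hy

theorem TD.Q_ten_zero (h : TD Q QA QB ten) (a : A) {b : B} (hb : QB b = 0) : Q (ten a b) = 0 := by
  rw [h.Q_ten, hb, mul_zero]

theorem TD.T_ten (h : TD Q QA QB ten) (x y : A) {b : B} (hb : QB b = 0) (v : V) :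
    T Q (ten x b) (ten y b) v = v + ten (wd QA x y (h.pb b v)) b := by
  rw [T_apply_root (h.Q_ten_zero x hb) (h.Q_ten_zero y hb)
    (by rw [h.form, polar_self_of_sing hb, mul_zero]), wd_apply, ← h.polar_pb', ← h.polar_pb',
    map_sub, map_smul, map_smul, LinearMap.sub_apply, LinearMap.smul_apply, LinearMap.smul_apply]
  abel

theorem TD.T_mem_iff (h : TD Q QA QB ten) {L : Subgroup (V ≃ₗ[F] V)} (x y : A) {b : B}
    (hb : QB b = 0) : T Q (ten x b) (ten y b) ∈ L ↔ wd QA x y ∈ RN h L b hb := by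
  constructor
  · intro hT
    exact ⟨_, hT, fun v => h.T_ten x y hb v⟩
  · rintro ⟨g, hg, hgv⟩
    have : T Q (ten x b) (ten y b) = g := by
      ext v
      rw [h.T_ten x y hb, hgv]
    rwa [this]

/-- `b` is full: all Siegel elements of the totally singular space `A ⊗ b` are in `L`. -/
def Full (Q : QuadraticForm F V) (ten : A →ₗ[F] B →ₗ[F] V) (L : Subgroup (V ≃ₗ[F] V)) (b : B) :
    Prop := ∀ x y : A, T Q (ten x b) (ten y b) ∈ L

theorem Full.smul {L : Subgroup (V ≃ₗ[F] V)} {b : B} (hf : Full Q ten L b) (c : F) :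
    Full Q ten L (c • b) := by
  intro x y
  have e1 : ten x (c • b) = ten (c • x) b := by simp
  have e2 : ten y (c • b) = ten (c • y) b := by simp
  rw [e1, e2]
  exact hf _ _

theorem Full.map (h : TD Q QA QB ten) {L : Subgroup (V ≃ₗ[F] V)} (hL : Ov Q ten L) (hG : Good Q)
    {b : B} (hf : Full Q ten L b) (x w : B) : Full Q ten L (T QB x w b) := by
  intro y z
  have hu : h.tm 1 (T QB x w) ∈ L := hL.tB h hG x w
  have h1 := L.mul_mem (L.mul_mem hu (hf y z)) (L.inv_mem hu)
  rw [T_conj (hL.leO hu), h.tm_ten, h.tm_ten] at h1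
  exact h1

theorem full_of_full (h : TD Q QA QB ten) {L : Subgroup (V ≃ₗ[F] V)} (hL : Ov Q ten L)
    (hG : Good Q) (hb : HB QB b1 b2 b3) (hf : Full Q ten L b1) (b : B) (hb' : QB b = 0) :
    Full Q ten L b := by
  by_cases h0 : b = 0
  · intro x y
    rw [h0, map_zero, T_zero_left]
    exact L.one_mem
  · exact hb.sing_induction (P := Full Q ten L) hf (fun b x w _ hb => hb.map h hL hG x w)
      (fun b c _ hb => hb.smul c) b hb' h0

/-- An element fixing `A ⊗ b1` and `A ⊗ b2` pointwise. -/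
theorem TD.central_form (h : TD Q QA QB ten) (hb : HB QB b1 b2 b3) {g : V ≃ₗ[F] V} (hg : g ∈ O Q)
    (h1 : ∀ x, g (ten x b1) = ten x b1) (h2 : ∀ x, g (ten x b2) = ten x b2) :
    ∃ s : A →ₗ[F] A, (∀ x, polar QA (s x) x = 0) ∧ ∀ v, g v = v + ten (s (h.pb b1 v)) b1 := by
  let s : A →ₗ[F] A := h.pb b3 ∘ₗ (g.toLinearMap - LinearMap.id) ∘ₗ ten.flip b3
  have hs : ∀ x, s x = h.pb b3 (g (ten x b3) - ten x b3) := fun x => rfl
  have hg3 : ∀ x, g (ten x b3) = ten x b3 + ten (s x) b1 := by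
    intro x
    have e1 : h.pb b1 (g (ten x b3) - ten x b3) = 0 := by
      apply h.nA
      intro y
      rw [h.polar_pb, polar_sub_left]
      have : polar Q (g (ten x b3)) (ten y b1) = polar Q (ten x b3) (ten y b1) := by
        conv_lhs => rw [← h1 y]
        rw [polar_map hg]
      rw [this, sub_self]
    have e2 : h.pb b2 (g (ten x b3) - ten x b3) = 0 := by
      apply h.nA
      intro y
      rw [h.polar_pb, polar_sub_left]
      have : polar Q (g (ten x b3)) (ten y b2) = polar Q (ten x b3) (ten y b2) := by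
        conv_lhs => rw [← h2 y]
        rw [polar_map hg]
      rw [this, sub_self]
    have e3 := h.decomp hb (g (ten x b3) - ten x b3)
    rw [e1, e2, smul_zero, map_zero, LinearMap.zero_apply, LinearMap.zero_apply, add_zero,
      add_zero, ← hs] at e3
    rw [← e3]
    abel
  refine ⟨s, fun x => ?_, ?_⟩
  · have e1 : Q (g (ten x b3)) = 0 := by rw [hg, h.Q_ten, hb.hyp.right, mul_zero]
    rw [hg3, Q_add, h.Q_ten, h.Q_ten, h.form, hb.hyp.right, hb.hyp.left, hb.p31, mul_zero,
      mul_zero, zero_add, zero_add, mul_one, polar_comm] at e1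
    exact e1
  · intro v
    have e : g.toLinearMap = LinearMap.id + (ten.flip b1) ∘ₗ s ∘ₗ h.pb b1 := by
      refine h.ext fun a b => ?_
      have e2 : ten a b = ten (polar QB b3 b • a) b1 + ten (((2 * QB b2)⁻¹ * polar QB b2 b) • a) b2 +
          ten (polar QB b1 b • a) b3 := by
        conv_lhs => rw [hb.span b]
        simp only [map_add, map_smul, LinearMap.smul_apply]
      simp only [LinearMap.add_apply, LinearMap.comp_apply, LinearMap.id_apply,
        LinearMap.flip_apply, LinearEquiv.coe_coe]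
      rw [h.pb_ten]
      conv_lhs => rw [e2, map_add, map_add, h1, h2, hg3]
      conv_rhs => rw [e2]
      abel
    have := LinearMap.congr_fun e v
    simpa using this

/-- Coordinates of skew operators. -/
theorem HB.skew_coord (h2 : (2 : F) ≠ 0) (ha : HB QA a1 a2 a3) {s : A →ₗ[F] A}
    (hs : ∀ x, polar QA (s x) x = 0) :
    s = ((2 * QA a2)⁻¹ * polar QA a2 (s a3)) • wd QA a1 a2 +
      (polar QA a1 (s a3)) • wd QA a1 a3 +
      (-((2 * QA a2)⁻¹ * polar QA a2 (s a1))) • wd QA a2 a3 := by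
  have hsk : ∀ x y, polar QA (s x) y = - polar QA (s y) x := by
    intro x y
    have h1 := hs (x + y)
    rw [map_add, polar_add_left, polar_add_right, polar_add_right, hs, hs, zero_add,
      add_zero] at h1
    linear_combination h1
  have hδ : (2 * QA a2) ≠ 0 := mul_ne_zero h2 ha.q2
  refine ha.ext ?_ ?_ ?_
  · conv_lhs => rw [ha.span (s a1)]
    simp only [LinearMap.add_apply, LinearMap.smul_apply, wd_apply, ha.p11, ha.p21, ha.p31]
    have e1 : polar QA a1 (s a1) = 0 := by rw [polar_comm]; exact hs a1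
    have e2 : polar QA a3 (s a1) = - polar QA a1 (s a3) := by
      rw [polar_comm, hsk, polar_comm]
    rw [e1, e2]
    module
  · conv_lhs => rw [ha.span (s a2)]
    simp only [LinearMap.add_apply, LinearMap.smul_apply, wd_apply, ha.p12, ha.p22, ha.p32]
    have e1 : polar QA a2 (s a2) = 0 := by rw [polar_comm]; exact hs a2
    have e2 : polar QA a3 (s a2) = - polar QA a2 (s a3) := by
      rw [polar_comm, hsk, polar_comm]
    have e3 : polar QA a1 (s a2) = - polar QA a2 (s a1) := by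
      rw [polar_comm, hsk, polar_comm]
    rw [e1, e2, e3]
    match_scalars
    · have : (1 : F) = (2 * QA a2)⁻¹ * (2 * QA a2) := (inv_mul_cancel₀ hδ).symm
      linear_combination (-polar QA a2 (s a3)) * this
    · ring
    · have : (1 : F) = (2 * QA a2)⁻¹ * (2 * QA a2) := (inv_mul_cancel₀ hδ).symm
      linear_combination (-polar QA a2 (s a1)) * this
  · conv_lhs => rw [ha.span (s a3)]
    simp only [LinearMap.add_apply, LinearMap.smul_apply, wd_apply, ha.p13, ha.p23, ha.p33]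
    have e1 : polar QA a3 (s a3) = 0 := by rw [polar_comm]; exact hs a3
    rw [e1]
    module

/-- A non-trivial central element gives a full `b`. -/
theorem full_of_central (h : TD Q QA QB ten) {L : Subgroup (V ≃ₗ[F] V)} (hL : Ov Q ten L)
    (hG : Good Q) (ha : HB QA a1 a2 a3) (hb : HB QB b1 b2 b3) {g : V ≃ₗ[F] V} (hg : g ∈ L)
    (h1 : ∀ x, g (ten x b1) = ten x b1) (h2 : ∀ x, g (ten x b2) = ten x b2) (hg1 : g ≠ 1) :
    Full Q ten L b1 := by
  obtain ⟨s, hs, hgs⟩ := h.central_form hb (hL.leO hg) h1 h2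
  have hb1 := hb.hyp.left
  have hsR : s ∈ RN h L b1 hb1 := ⟨g, hg, hgs⟩
  have hs0 : s ≠ 0 := by
    rintro rfl
    apply hg1
    ext v
    rw [hgs]
    simp
  have e := ha.skew_coord h.two hs
  set x := (2 * QA a2)⁻¹ * polar QA a2 (s a3) with hx
  set y := polar QA a1 (s a3) with hy
  set z := -((2 * QA a2)⁻¹ * polar QA a2 (s a1)) with hz
  suffices hall : ∀ x y, wd QA x y ∈ RN h L b1 hb1 from
    fun x y => (h.T_mem_iff x y hb1).2 (hall x y)
  rw [e] at hsR
  by_cases hz0 : z = 0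
  · by_cases hx0 : x = 0
    · have hy0 : y ≠ 0 := by
        intro hy0
        rw [hx0, hy0, hz0, zero_smul, zero_smul, zero_smul, zero_add, zero_add] at e
        exact hs0 e
      rw [hx0, hz0, zero_smul, zero_smul, zero_add, add_zero] at hsR
      refine RN_full_of_one h hL hG ha fun t => ?_
      have h3 := RN_conj h hL hG a1 ((t * y⁻¹) • a2) hsR
      have hu : T QA a1 ((t * y⁻¹) • a2) ∈ O QA := T_mem_O _ _
      have e1 : (T QA a1 ((t * y⁻¹) • a2)).toLinearMap ∘ₗ (y • wd QA a1 a3) ∘ₗ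
          ((T QA a1 ((t * y⁻¹) • a2))⁻¹ : A ≃ₗ[F] A).toLinearMap =
          y • wd QA a1 a3 + t • wd QA a1 a2 := by
        have e2 : (T QA a1 ((t * y⁻¹) • a2)).toLinearMap ∘ₗ (y • wd QA a1 a3) ∘ₗ
          ((T QA a1 ((t * y⁻¹) • a2))⁻¹ : A ≃ₗ[F] A).toLinearMap =
          y • wd QA (T QA a1 ((t * y⁻¹) • a2) a1) (T QA a1 ((t * y⁻¹) • a2) a3) := by
          rw [← wd_conj hu]
          simp only [LinearMap.smul_comp, LinearMap.comp_smul]
        rw [e2, T_HB_one ha, T_HB_three ha]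
        simp only [sub_eq_add_neg, ← neg_smul, wd_add_right, wd_smul_right, wd_self]
        match_scalars
        · ring
        · field_simp
      rw [e1] at h3
      have h4 := (RN h L b1 hb1).sub_mem h3 hsR
      rwa [add_sub_cancel_left] at h4
    · intro u v
      have h3 : ∀ t : F, t • wd QA a3 a2 ∈ RN h L b1 hb1 := by
        intro t
        refine RN_step h hL hG ha.symm (x := -z) (y := -y) (z := -x) (neg_ne_zero.2 hx0) ?_ t
        have e1 : (-z) • wd QA a3 a2 + (-y) • wd QA a3 a1 + (-x) • wd QA a2 a1 =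
            x • wd QA a1 a2 + y • wd QA a1 a3 + z • wd QA a2 a3 := by
          rw [wd_swap a2 a3, wd_swap a1 a3, wd_swap a1 a2]
          module
        rw [e1]
        exact hsR
      exact RN_full_of_one h hL hG ha.symm h3 u v
  · exact RN_full_of_one h hL hG ha fun t => RN_step h hL hG ha hz0 hsR t

/-! ### full implies everything -/

theorem E_le_of_full_ten (h : TD Q QA QB ten) {L : Subgroup (V ≃ₗ[F] V)} (hL : Ov Q ten L)
    (hG : Good Q) (ha : HB QA a1 a2 a3) (hb : HB QB b1 b2 b3) (hf : Full Q ten L b1) :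
    E Q ≤ L := by
  have hLO := hL.leO
  have hfull : ∀ b, QB b = 0 → Full Q ten L b := fun b hb' => full_of_full h hL hG hb hf b hb'
  -- membership in `Ts`
  have hTs : ∀ (x y : A) (b : B), QB b = 0 → ten y b ∈ Ts Q L (ten x b) := by
    intro x y b hb'
    refine ⟨by rw [h.form, polar_self_of_sing hb', mul_zero], fun c => ?_⟩
    have : c • ten y b = ten (c • y) b := by simp
    rw [this]
    exact hfull b hb' x (c • y)
  -- (3b)
  have h3b : ∀ (α x y : A) (b b' : B), QB b = 0 → QB b' = 0 → polar QB b' b ≠ 0 →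
      polar QA x α = 0 → polar QA y α = 0 → QA x ≠ 0 → polar QA x y = 0 →
      ten y b' ∈ Ts Q L (ten α b) := by
    intro α x y b b' hb hb' hbb hx hy hqx hxy
    have hroot : T Q (ten x b') (ten y b') ∈ L := hfull b' hb' x y
    have hfix : T Q (ten x b') (ten y b') (ten α b) = ten α b := by
      rw [h.T_ten x y hb', h.pb_ten, map_smul, wd_apply, hx, hy]
      simp
    have h1 := root_mem_Ts hLO (h.Q_ten_zero x hb') (h.Q_ten_zero y hb')
      (by rw [h.form, polar_self_of_sing hb', mul_zero]) hroot hfix (hTs α x b hb)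
    rw [h.form, h.form, polar_self', polar_comm QA y x, hxy, zero_mul, zero_smul, sub_zero] at h1
    have hne : 2 * QA x * polar QB b' b ≠ 0 := mul_ne_zero (mul_ne_zero h.two hqx) hbb
    have h2 := (Ts Q L (ten α b)).smul_mem (2 * QA x * polar QB b' b)⁻¹ h1
    rwa [smul_smul, inv_mul_cancel₀ hne, one_smul] at h2
  -- an orthogonal basis `α = a2`, `γ = a1 + a3`, `δ = a1 - a3` of `A`
  have hγ : QA (a1 + a3) ≠ 0 := by
    rw [Q_add, ha.hyp.left, ha.hyp.right, ha.p13]
    simp
  have hδ : QA (a1 - a3) ≠ 0 := by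
    rw [sub_eq_add_neg, Q_add, ha.hyp.left, QuadraticMap.map_neg, ha.hyp.right, polar_neg_right,
      ha.p13]
    simp
  have hγδ : polar QA (a1 + a3) (a1 - a3) = 0 := by
    rw [polar_sub_right, polar_add_left, polar_add_left, ha.p11, ha.p13, ha.p31, ha.p33]
    ring
  have hδγ : polar QA (a1 - a3) (a1 + a3) = 0 := by rw [polar_comm]; exact hγδ
  have hγα : polar QA (a1 + a3) a2 = 0 := by rw [polar_add_left, ha.p12, ha.p32, add_zero]
  have hδα : polar QA (a1 - a3) a2 = 0 := by rw [polar_sub_left, ha.p12, ha.p32, sub_zero]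
  have hαγ : polar QA a2 (a1 + a3) = 0 := by rw [polar_comm]; exact hγα
  have hαδ : polar QA a2 (a1 - a3) = 0 := by rw [polar_comm]; exact hδα
  -- every vector of `B` is a sum of singular vectors not orthogonal to a given singular one, and
  -- of that vector
  have hB : ∀ {c1 c2 c3 : B}, HB QB c1 c2 c3 → ∀ (S : Submodule F V) (y : A),
      (∀ c, QB c = 0 → polar QB c c1 ≠ 0 → ten y c ∈ S) → ten y c1 ∈ S → ∀ c, ten y c ∈ S := by
    intro c1 c2 c3 hc S y hS h1 c
    have h3 : ten y c3 ∈ S := hS c3 hc.hyp.right (by rw [hc.p31]; exact one_ne_zero)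
    have h2 : ten y c2 ∈ S := by
      have hs := hS (T QB c1 ((1 : F) • c2) c3) (by
        rw [mem_O.1 (T_mem_O _ _)]
        exact hc.hyp.right) (by
        rw [T_HB_three hc, polar_sub_left, polar_add_left, polar_smul_left, polar_smul_left,
          hc.p31, hc.p21, hc.p11]
        simp)
      rw [T_HB_three hc] at hs
      have e : ten y c2 = ten y (c3 + (1 : F) • c2 - ((1 : F) ^ 2 * QB c2) • c1) - ten y c3 +
          ((1 : F) ^ 2 * QB c2) • ten y c1 := by
        rw [map_sub, map_add, map_smul, map_smul, one_smul]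
        abel
      rw [e]
      exact S.add_mem (S.sub_mem hs h3) (S.smul_mem _ h1)
    rw [hc.span c, map_add, map_add, map_smul, map_smul, map_smul]
    exact S.add_mem (S.add_mem (S.smul_mem _ h1) (S.smul_mem _ h2)) (S.smul_mem _ h3)
  -- for an orthogonal basis `α, γ, δ` and a singular `c1`, `Ts (ten α c1) = (ten α c1)^⊥`
  have key : ∀ {α γ δ : A}, QA α ≠ 0 → QA γ ≠ 0 → QA δ ≠ 0 → polar QA γ α = 0 →
      polar QA δ α = 0 → polar QA γ δ = 0 → (∀ x : A, ∃ r s t : F, x = r • α + s • γ + t • δ) →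
      ∀ {c1 c2 c3 : B}, HB QB c1 c2 c3 → ∀ v, polar Q (ten α c1) v = 0 → v ∈ Ts Q L (ten α c1) := by
    intro α γ δ hα hγ hδ hγα hδα hγδ hspan c1 c2 c3 hc
    have hδγ : polar QA δ γ = 0 := by rw [polar_comm]; exact hγδ
    have hαγ : polar QA α γ = 0 := by rw [polar_comm]; exact hγα
    have hG1 : ∀ c, ten γ c ∈ Ts Q L (ten α c1) := by
      refine hB hc _ γ (fun c hc' hcc => ?_) (hTs α γ c1 hc.hyp.left)
      exact h3b α δ γ c1 c hc.hyp.left hc' hcc hδα hγα hδ hδγ
    have hG2 : ∀ c, ten δ c ∈ Ts Q L (ten α c1) := by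
      refine hB hc _ δ (fun c hc' hcc => ?_) (hTs α δ c1 hc.hyp.left)
      exact h3b α γ δ c1 c hc.hyp.left hc' hcc hγα hδα hγ hγδ
    -- the same for `γ`
    have hG3 : ∀ c, ten α c ∈ Ts Q L (ten γ c1) := by
      refine hB hc _ α (fun c hc' hcc => ?_) (hTs γ α c1 hc.hyp.left)
      exact h3b γ δ α c1 c hc.hyp.left hc' hcc hδγ hαγ hδ hδα
    have hG4 : ∀ w, polar QB c1 w = 0 → ten α w ∈ Ts Q L (ten α c1) := by
      intro w hw
      have hTL : T Q (ten γ c1) (ten α w) ∈ L := Ts_mem (hG3 w)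
      have hsing : Q (ten γ c1) = 0 := h.Q_ten_zero γ hc.hyp.left
      have hperp : polar Q (ten γ c1) (ten α w) = 0 := by rw [h.form, hγα, zero_mul]
      have hfix : T Q (ten γ c1) (ten α w) (ten α c1) = ten α c1 := by
        rw [T_apply hsing hperp, h.form, h.form, hγα, polar_comm QB w c1, hw]
        simp
      have h1 := fix_mem_Ts hTL (hLO hTL) hfix (hG1 c3)
      rw [T_apply hsing hperp, h.form, h.form, hαγ, hc.p13, polar_self'] at h1
      have h2 := (Ts Q L (ten α c1)).sub_mem h1 (hG1 c3)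
      have h3 := (Ts Q L (ten α c1)).add_mem h2
        ((Ts Q L (ten α c1)).smul_mem (Q (ten α w) * (2 * QA γ * 1)) (hG1 c1))
      have h4 := (Ts Q L (ten α c1)).smul_mem (2 * QA γ)⁻¹ h3
      have e : (2 * QA γ)⁻¹ • (ten γ c3 + (2 * QA γ * 1) • ten α w - (0 * polar QB w c3) • ten γ c1 -
          (Q (ten α w) * (2 * QA γ * 1)) • ten γ c1 - ten γ c3 +
          (Q (ten α w) * (2 * QA γ * 1)) • ten γ c1) = ten α w := by
        have hne : 2 * QA γ ≠ 0 := mul_ne_zero h.two hγ
        have : ten α w = ((2 * QA γ)⁻¹ * (2 * QA γ)) • ten α w := by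
          rw [inv_mul_cancel₀ hne, one_smul]
        conv_rhs => rw [this]
        module
      rwa [e] at h4
    intro v hv
    -- decompose `v`
    have hdec : ∀ v : V, ∃ x y z : B, v = ten α x + ten γ y + ten δ z := by
      intro v
      have e := h.decomp hc v
      obtain ⟨r1, s1, t1, e1⟩ := hspan (h.pb c3 v)
      obtain ⟨r2, s2, t2, e2⟩ := hspan ((2 * QB c2)⁻¹ • h.pb c2 v)
      obtain ⟨r3, s3, t3, e3⟩ := hspan (h.pb c1 v)
      refine ⟨r1 • c1 + r2 • c2 + r3 • c3, s1 • c1 + s2 • c2 + s3 • c3,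
        t1 • c1 + t2 • c2 + t3 • c3, ?_⟩
      rw [e, e1, e2, e3]
      simp only [map_add, map_smul, LinearMap.add_apply, LinearMap.smul_apply]
      abel
    obtain ⟨x, y, z, rfl⟩ := hdec v
    rw [polar_add_right, polar_add_right, h.form, h.form, h.form, hαγ, polar_comm QA α δ, hδα,
      zero_mul, zero_mul, add_zero, add_zero, polar_self'] at hv
    have hx : polar QB c1 x = 0 := (mul_eq_zero.1 hv).resolve_left (mul_ne_zero h.two hα)
    exact (Ts Q L (ten α c1)).add_mem ((Ts Q L (ten α c1)).add_mem (hG4 x hx) (hG1 y)) (hG2 z)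
  have hspan : ∀ x : A, ∃ r s t : F, x = r • a2 + s • (a1 + a3) + t • (a1 - a3) := by
    intro x
    refine ⟨(2 * QA a2)⁻¹ * polar QA a2 x, (2 : F)⁻¹ * (polar QA a3 x + polar QA a1 x),
      (2 : F)⁻¹ * (polar QA a3 x - polar QA a1 x), ?_⟩
    have h21 : (2 : F)⁻¹ * 2 = 1 := inv_mul_cancel₀ h.two
    conv_lhs => rw [ha.span x]
    match_scalars
    · linear_combination (-polar QA a3 x) * h21
    · ring
    · linear_combination (-polar QA a1 x) * h21
  have h1 := key ha.q2 hγ hδ hγα hδα hγδ hspan hb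
  have h3 := key ha.q2 hγ hδ hγα hδα hγδ hspan hb.symm
  refine E_le_of_Ts hG (e := ten a2 b1) (f := ten a2 b3) (h.Q_ten_zero _ hb.hyp.left)
    (h.Q_ten_zero _ hb.hyp.right) ?_ h1 h3
  rw [h.form, hb.p13, mul_one, polar_self']
  exact mul_ne_zero h.two ha.q2

/-- **Part I.** A proper overgroup contains no non-trivial element fixing `A ⊗ b^⊥` pointwise. -/
theorem central_trivial (h : TD Q QA QB ten) {L : Subgroup (V ≃ₗ[F] V)} (hL : Ov Q ten L)
    (hG : Good Q) (hne : ¬ E Q ≤ L) (ha : HB QA a1 a2 a3) (hb : HB QB b1 b2 b3) {g : V ≃ₗ[F] V}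
    (hg : g ∈ L) (h1 : ∀ x, g (ten x b1) = ten x b1) (h2 : ∀ x, g (ten x b2) = ten x b2) :
    g = 1 := by
  by_contra hg1
  exact hne (E_le_of_full_ten h hL hG ha hb (full_of_central h hL hG ha hb hg h1 h2 hg1))

end Cfsg.Agent.H922.Ten
end

-- part: H922/TenLocal
section
/-!
Tensor decompositions `V = A ⊗ B`, `dim A = dim B = 3`: local analysis of a proper overgroup of the
decomposable part of `E Q` at the totally singular subspace `A ⊗ b`.
-/

set_option autoImplicit false
set_option linter.unusedSectionVars false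

namespace Cfsg.Agent.H922.Ten

open QuadraticMap Cfsg.Agent.LieClassical.OrthCore Cfsg.Agent.LieClassical.OrthTrans
  Cfsg.Agent.LieClassical.OrthSimple Cfsg.Agent.ClassicalGeometry.OrthAutBasic
  Cfsg.Agent.H887.SiegelMethod

variable {F V A B : Type*} [Field F] [AddCommGroup V] [Module F V] [AddCommGroup A] [Module F A]
  [AddCommGroup B] [Module F B] {Q : QuadraticForm F V} {QA : QuadraticForm F A}
  {QB : QuadraticForm F B} {ten : A →ₗ[F] B →ₗ[F] V}

variable {a1 a2 a3 : A} {b1 b2 b3 : B}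

/-- Elements of the unipotent radical of the stabiliser of `A ⊗ b1`, in coordinates. -/
structure RTy (ten : A →ₗ[F] B →ₗ[F] V) (b1 b2 b3 : B) (r : V ≃ₗ[F] V) (m n k : A →ₗ[F] A) :
    Prop where
  one : ∀ x, r (ten x b1) = ten x b1
  two : ∀ x, r (ten x b2) = ten x b2 + ten (m x) b1
  three : ∀ x, r (ten x b3) = ten x b3 + ten (n x) b2 + ten (k x) b1

theorem exists_RTy (h : TD Q QA QB ten) (hb : HB QB b1 b2 b3) {r : V ≃ₗ[F] V} (hr : r ∈ O Q)
    (h1 : ∀ x, r (ten x b1) = ten x b1) (h2 : ∀ x, ∃ y, r (ten x b2) = ten x b2 + ten y b1) :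
    ∃ m n k : A →ₗ[F] A, RTy ten b1 b2 b3 r m n k ∧
      ∀ x y, polar QA x (m y) + 2 * QB b2 * polar QA (n x) y = 0 := by
  let m : A →ₗ[F] A := h.pb b3 ∘ₗ (r.toLinearMap - LinearMap.id) ∘ₗ ten.flip b2
  let n : A →ₗ[F] A := (2 * QB b2)⁻¹ • (h.pb b2 ∘ₗ (r.toLinearMap - LinearMap.id) ∘ₗ ten.flip b3)
  let k : A →ₗ[F] A := h.pb b3 ∘ₗ (r.toLinearMap - LinearMap.id) ∘ₗ ten.flip b3
  have hm : ∀ x, m x = h.pb b3 (r (ten x b2) - ten x b2) := fun x => rfl
  have hn : ∀ x, n x = (2 * QB b2)⁻¹ • h.pb b2 (r (ten x b3) - ten x b3) := fun x => rfl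
  have hk : ∀ x, k x = h.pb b3 (r (ten x b3) - ten x b3) := fun x => rfl
  have hm2 : ∀ x, r (ten x b2) = ten x b2 + ten (m x) b1 := by
    intro x
    obtain ⟨y, hy⟩ := h2 x
    rw [hm, hy, add_sub_cancel_left, h.pb_ten, hb.p31, one_smul]
  have h3 : ∀ x, r (ten x b3) = ten x b3 + ten (n x) b2 + ten (k x) b1 := by
    intro x
    have e1 : h.pb b1 (r (ten x b3) - ten x b3) = 0 := by
      apply h.nA
      intro y
      rw [h.polar_pb, polar_sub_left]
      have : polar Q (r (ten x b3)) (ten y b1) = polar Q (ten x b3) (ten y b1) := by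
        conv_lhs => rw [← h1 y]
        rw [polar_map hr]
      rw [this, sub_self]
    have e := h.decomp hb (r (ten x b3) - ten x b3)
    rw [e1, ← hn, ← hk, map_zero, LinearMap.zero_apply, add_zero] at e
    have : r (ten x b3) = ten x b3 + (r (ten x b3) - ten x b3) := by abel
    rw [this, e]
    abel
  refine ⟨m, n, k, ⟨h1, hm2, h3⟩, fun x y => ?_⟩
  have e := polar_map hr (ten x b3) (ten y b2)
  rw [h3, hm2] at e
  simp only [polar_add_left, polar_add_right, h.form, hb.p11, hb.p12, hb.p21, hb.p31, hb.p32,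
    polar_self', mul_zero, mul_one, add_zero, zero_add] at e
  linear_combination e

/-- Two elements of `L` of this type commute, if `L` has no central elements. -/
theorem RTy.comm (h : TD Q QA QB ten) (hb : HB QB b1 b2 b3) {L : Subgroup (V ≃ₗ[F] V)}
    (hZ : ∀ g ∈ L, (∀ x, g (ten x b1) = ten x b1) → (∀ x, g (ten x b2) = ten x b2) → g = 1)
    {r r' : V ≃ₗ[F] V} (hr : r ∈ L) (hr' : r' ∈ L) {m n k m' n' k' : A →ₗ[F] A}
    (hR : RTy ten b1 b2 b3 r m n k) (hR' : RTy ten b1 b2 b3 r' m' n' k') (x : A) :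
    m (n' x) = m' (n x) := by
  have e1 : ∀ x, (r * r') (ten x b1) = ten x b1 := fun x => by
    rw [LinearEquiv.mul_apply, hR'.one, hR.one]
  have e2 : ∀ x, (r' * r) (ten x b1) = ten x b1 := fun x => by
    rw [LinearEquiv.mul_apply, hR.one, hR'.one]
  have e3 : ∀ x, (r * r') (ten x b2) = ten x b2 + ten (m x) b1 + ten (m' x) b1 := fun x => by
    rw [LinearEquiv.mul_apply, hR'.two, map_add, hR.one, hR.two]
  have e4 : ∀ x, (r' * r) (ten x b2) = ten x b2 + ten (m x) b1 + ten (m' x) b1 := fun x => by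
    rw [LinearEquiv.mul_apply, hR.two, map_add, hR'.one, hR'.two]
    abel
  set g := (r * r') * (r' * r)⁻¹ with hg
  have hgL : g ∈ L := L.mul_mem (L.mul_mem hr hr') (L.inv_mem (L.mul_mem hr' hr))
  have hgg : ∀ v, g ((r' * r) v) = (r * r') v := by
    intro v
    show (r * r') ((r' * r)⁻¹ ((r' * r) v)) = _
    have : (r' * r)⁻¹ ((r' * r) v) = v := LinearEquiv.symm_apply_apply (r' * r) v
    rw [this]
  have hg1 : ∀ x, g (ten x b1) = ten x b1 := by
    intro x
    have := hgg (ten x b1)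
    rwa [e1, e2] at this
  have hg2 : ∀ x, g (ten x b2) = ten x b2 := by
    intro x
    have := hgg (ten x b2)
    rw [e3, e4, map_add, map_add, hg1, hg1] at this
    exact add_right_cancel (add_right_cancel this)
  have hg1' := hZ g hgL hg1 hg2
  have hc : r * r' = r' * r := mul_inv_eq_one.1 hg1'
  have e5 := DFunLike.congr_fun hc (ten x b3)
  rw [LinearEquiv.mul_apply, LinearEquiv.mul_apply, hR.three, hR'.three] at e5
  simp only [map_add] at e5
  rw [hR.one, hR.two, hR.three, hR'.one, hR'.two, hR'.three] at e5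
  have e6 : ten x b3 + ten (n x) b2 + ten (n' x) b2 + ten (k x) b1 + ten (k' x) b1 +
      ten (m (n' x)) b1 = ten x b3 + ten (n x) b2 + ten (n' x) b2 + ten (k x) b1 + ten (k' x) b1 +
      ten (m' (n x)) b1 := by
    have e7 : ten x b3 + ten (n x) b2 + ten (n' x) b2 + ten (k x) b1 + ten (k' x) b1 +
      ten (m (n' x)) b1 = ten x b3 + ten (n x) b2 + ten (k x) b1 + (ten (n' x) b2 +
        ten (m (n' x)) b1) + ten (k' x) b1 := by abel
    rw [e7, e5]
    abel
  exact h.ten_inj hb.hyp.left_ne (add_left_cancel e6)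

/-- The element `1 ⊗ T b1 (c b2)`. -/
theorem RTy_u (h : TD Q QA QB ten) (hb : HB QB b1 b2 b3) (c : F) :
    RTy ten b1 b2 b3 (h.tm 1 (T QB b1 (c • b2))) ((-(c * (2 * QB b2))) • LinearMap.id)
      (c • LinearMap.id) ((-(c ^ 2 * QB b2)) • LinearMap.id) where
  one x := by rw [h.tm_ten, T_HB_one hb]; rfl
  two x := by
    have e1 : (1 : A ≃ₗ[F] A) x = x := rfl
    rw [h.tm_ten, T_HB_two hb, e1]
    simp only [map_sub, map_smul, map_neg, LinearMap.neg_apply, LinearMap.smul_apply,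
      LinearMap.id_apply, sub_eq_add_neg, neg_smul, map_add]
  three x := by
    have e1 : (1 : A ≃ₗ[F] A) x = x := rfl
    rw [h.tm_ten, T_HB_three hb, e1]
    simp only [map_sub, map_add, map_smul, map_neg, LinearMap.neg_apply, LinearMap.smul_apply,
      LinearMap.id_apply, sub_eq_add_neg, neg_smul]

theorem RTy.conj (h : TD Q QA QB ten) {r : V ≃ₗ[F] V} {m n k : A →ₗ[F] A}
    (hR : RTy ten b1 b2 b3 r m n k) (α : A ≃ₗ[F] A) :
    RTy ten b1 b2 b3 (h.tm α 1 * r * (h.tm α 1)⁻¹) (α.toLinearMap ∘ₗ m ∘ₗ (α⁻¹ : A ≃ₗ[F] A).toLinearMap)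
      (α.toLinearMap ∘ₗ n ∘ₗ (α⁻¹ : A ≃ₗ[F] A).toLinearMap)
      (α.toLinearMap ∘ₗ k ∘ₗ (α⁻¹ : A ≃ₗ[F] A).toLinearMap) := by
  have e : ∀ x, α ((α⁻¹ : A ≃ₗ[F] A) x) = x := fun x => LinearEquiv.apply_symm_apply α x
  have e1 : ∀ (x : A) (b : B), (h.tm α 1)⁻¹ (ten x b) = ten ((α⁻¹ : A ≃ₗ[F] A) x) b := by
    intro x b
    rw [h.tm_inv, h.tm_ten]
    simp
  refine ⟨fun x => ?_, fun x => ?_, fun x => ?_⟩
  · rw [LinearEquiv.mul_apply, LinearEquiv.mul_apply, e1, hR.one, h.tm_ten, e]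
    rfl
  · rw [LinearEquiv.mul_apply, LinearEquiv.mul_apply, e1, hR.two, map_add, h.tm_ten, h.tm_ten, e]
    rfl
  · rw [LinearEquiv.mul_apply, LinearEquiv.mul_apply, e1, hR.three, map_add, map_add, h.tm_ten,
      h.tm_ten, h.tm_ten, e]
    rfl

/-- A self-adjoint operator commuting with its conjugates under the Siegel elements is a scalar. -/
theorem scalar_of_comm [Finite F] (hF : 5 ≤ Nat.card F) (h2 : (2 : F) ≠ 0)
    (ha : HB QA a1 a2 a3) (hd : Module.finrank F A = 3) (hn : Nondeg QA) {m : A →ₗ[F] A}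
    (hm : ∀ x y, polar QA (m x) y = polar QA x (m y))
    (hc : ∀ a w x, m (T QA a w (m ((T QA a w)⁻¹ x))) = T QA a w (m ((T QA a w)⁻¹ (m x)))) :
    ∃ c : F, ∀ x, m x = c • x := by
  -- vanishing on singular vectors
  have key : ∀ a, QA a = 0 → polar QA (m a) a = 0 := by
    intro a hq
    by_cases h0 : a = 0
    · rw [h0, map_zero, polar_zero_left]
    obtain ⟨w, a', hb⟩ := exists_HB h2 hn hd hq h0
    set κ := QA w with hκ
    set G11 := polar QA (m a) a with hG11
    set G12 := polar QA (m a) w with hG12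
    set G13 := polar QA (m a) a' with hG13
    set G22 := polar QA (m w) w with hG22
    set G23 := polar QA (m w) a' with hG23
    set G33 := polar QA (m a') a' with hG33
    have hG21 : polar QA (m w) a = G12 := by rw [hm, polar_comm]
    have hG31 : polar QA (m a') a = G13 := by rw [hm, polar_comm]
    have hG32 : polar QA (m a') w = G23 := by rw [hm, polar_comm]
    have hma : m a = G13 • a + ((2 * κ)⁻¹ * G12) • w + G11 • a' := by
      have := hb.span (m a)
      rw [polar_comm QA a' (m a), polar_comm QA w (m a), polar_comm QA a (m a)] at this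
      exact this
    set p1 := G13 with hp1
    set p2 := (2 * κ)⁻¹ * G12 with hp2
    set p3 := G11 with hp3
    have hpoly : ∀ c : F,
        (p1 * G13 + p2 * G23 + p3 * G33 - (p1 * G13 + p2 * G23 + p3 * G33)) +
        (-(p2 * (2 * κ) * G13) + p3 * G23 + p1 * G12 + p2 * G22 - p2 * (2 * κ) * G13 + p3 * G23 +
          p3 * G23) * c +
        (-(p3 * κ * G13) + p1 * κ * G11 + p2 * κ * G12 + p2 * (2 * κ) * G12 + p3 * κ * G13 -
          p3 * G22 + p3 * κ * G13) * c ^ 2 +
        (p2 * (2 * κ) * κ * G11 - p3 * κ * G12 - p3 * κ * G12) * c ^ 3 +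
        (-(p3 * κ * κ * G11)) * c ^ 4 = 0 := by
      intro c
      have e := hc a (c • w) a
      have hT1 : T QA a (c • w) a = a := T_HB_one hb c
      have hTi : (T QA a (c • w))⁻¹ = T QA a ((-c) • w) := by
        rw [T_inv hq (by rw [polar_smul_right, hb.p12, smul_zero]), neg_smul]
      have hO : T QA a (c • w) ∈ O QA := T_mem_O _ _
      have e2 : polar QA (m (T QA a (c • w) (m ((T QA a (c • w))⁻¹ a)))) a' =
          polar QA (T QA a (c • w) (m a)) (m a') := by
        rw [hTi, T_HB_one hb, hm]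
      have e3 : polar QA (T QA a (c • w) (m ((T QA a (c • w))⁻¹ (m a)))) a' =
          polar QA ((T QA a (c • w))⁻¹ (m a)) (m ((T QA a (c • w))⁻¹ a')) := by
        rw [← hm]
        have e4 : a' = T QA a (c • w) ((T QA a (c • w))⁻¹ a') :=
          (LinearEquiv.apply_symm_apply (T QA a (c • w)) a').symm
        conv_lhs => rw [e4]
        rw [polar_map hO]
      have e5 : polar QA (T QA a (c • w) (m a)) (m a') =
          polar QA ((T QA a (c • w))⁻¹ (m a)) (m ((T QA a (c • w))⁻¹ a')) := by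
        rw [← e2, ← e3, e]
      rw [hTi, hma] at e5
      simp only [map_add, map_smul, map_sub, T_HB_one hb, T_HB_two hb, T_HB_three hb,
        polar_add_left, polar_add_right, polar_sub_left, polar_sub_right, polar_smul_left,
        polar_smul_right, smul_eq_mul] at e5
      have q1 : polar QA a (m a) = G11 := by rw [polar_comm]
      have q2 : polar QA w (m a) = G12 := by rw [polar_comm]
      have q3 : polar QA a' (m a) = G13 := by rw [polar_comm]
      have q4 : polar QA a (m w) = G12 := by rw [polar_comm, hG21]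
      have q5 : polar QA w (m w) = G22 := by rw [polar_comm]
      have q6 : polar QA a' (m w) = G23 := by rw [polar_comm]
      have q7 : polar QA a (m a') = G13 := by rw [polar_comm, hG31]
      have q8 : polar QA w (m a') = G23 := by rw [polar_comm, hG32]
      have q9 : polar QA a' (m a') = G33 := by rw [polar_comm]
      rw [q1, q2, q3, q4, q5, q6, q7, q8, q9] at e5
      linear_combination e5
    have h4 := (coeff_zero hF hpoly).2.2.2.2
    have hκ0 : κ ≠ 0 := hb.q2
    have : κ * κ * (G11 * G11) = 0 := by linear_combination -h4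
    have := (mul_eq_zero.1 this).resolve_left (mul_ne_zero hκ0 hκ0)
    exact mul_self_eq_zero.1 this
  -- conclusion
  set κ := QA a2 with hκ
  have hκ0 : κ ≠ 0 := ha.q2
  set G11 := polar QA (m a1) a1 with hG11
  set G12 := polar QA (m a1) a2 with hG12
  set G13 := polar QA (m a1) a3 with hG13
  set G22 := polar QA (m a2) a2 with hG22
  set G23 := polar QA (m a2) a3 with hG23
  set G33 := polar QA (m a3) a3 with hG33
  have hG21 : polar QA (m a2) a1 = G12 := by rw [hm, polar_comm]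
  have hG31 : polar QA (m a3) a1 = G13 := by rw [hm, polar_comm]
  have hG32 : polar QA (m a3) a2 = G23 := by rw [hm, polar_comm]
  have hpoly : ∀ c : F, G33 + (2 * G23) * c + (G22 - 2 * κ * G13) * c ^ 2 + (-(2 * κ * G12)) * c ^ 3 +
      (κ ^ 2 * G11) * c ^ 4 = 0 := by
    intro c
    have e := key (T QA a1 (c • a2) a3) (by rw [mem_O.1 (T_mem_O _ _)]; exact ha.hyp.right)
    rw [T_HB_three ha] at e
    simp only [map_add, map_smul, map_sub,
        polar_add_left, polar_add_right, polar_sub_left, polar_sub_right, polar_smul_left,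
        polar_smul_right, smul_eq_mul, hG21, hG31, hG32] at e
    linear_combination e
  obtain ⟨k0, k1, k2, k3, k4⟩ := coeff_zero hF hpoly
  have g11 : G11 = 0 := (mul_eq_zero.1 k4).resolve_left (pow_ne_zero 2 hκ0)
  have g12 : G12 = 0 := by
    have := neg_eq_zero.1 k3
    exact (mul_eq_zero.1 this).resolve_left (mul_ne_zero h2 hκ0)
  have g23 : G23 = 0 := (mul_eq_zero.1 k1).resolve_left h2
  have g22 : G22 = 2 * κ * G13 := sub_eq_zero.1 k2
  refine ⟨G13, ?_⟩
  have e : m = G13 • LinearMap.id := by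
    refine ha.ext ?_ ?_ ?_
    · rw [ha.span (m a1), polar_comm QA a3, polar_comm QA a2, polar_comm QA a1, ← hG11, ← hG12,
        ← hG13, g11, g12]
      simp
    · rw [ha.span (m a2), polar_comm QA a3, polar_comm QA a2, polar_comm QA a1, ← hG23, ← hG22,
        hG21, g23, g12, g22]
      simp only [zero_smul, zero_add, add_zero, LinearMap.smul_apply, LinearMap.id_apply]
      rw [← mul_assoc, inv_mul_cancel₀ (mul_ne_zero h2 hκ0), one_mul]
    · rw [ha.span (m a3), polar_comm QA a3, polar_comm QA a2, polar_comm QA a1, ← hG33, hG32,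
        hG31, g23, k0]
      simp
  intro x
  rw [e]
  rfl

/-- **(1b)** `L ∩ R(A ⊗ b1)` is the group of the elements `1 ⊗ T b1 (c b2)`. -/
theorem rad_eq [Finite F] (hF : 5 ≤ Nat.card F) (h : TD Q QA QB ten) {L : Subgroup (V ≃ₗ[F] V)}
    (hL : Ov Q ten L) (hG : Good Q) (hne : ¬ E Q ≤ L) (ha : HB QA a1 a2 a3)
    (hd : Module.finrank F A = 3) (hb : HB QB b1 b2 b3) {r : V ≃ₗ[F] V}
    (hr : r ∈ L) (h1 : ∀ x, r (ten x b1) = ten x b1)
    (h2 : ∀ x, ∃ y, r (ten x b2) = ten x b2 + ten y b1) :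
    ∃ c : F, r = h.tm 1 (T QB b1 (c • b2)) := by
  have hZ : ∀ g ∈ L, (∀ x, g (ten x b1) = ten x b1) → (∀ x, g (ten x b2) = ten x b2) → g = 1 :=
    fun g hg h1 h2 => central_trivial h hL hG hne ha hb hg h1 h2
  obtain ⟨m, n, k, hR, hrel⟩ := exists_RTy h hb (hL.leO hr) h1 h2
  have hδ : (2 * QB b2) ≠ 0 := mul_ne_zero h.two hb.q2
  -- `m = -δ n`
  have hmn : ∀ x, m x = (-(2 * QB b2)) • n x := by
    intro x
    have := hR.comm h hb hZ hr (hL.tB h hG b1 ((1 : F) • b2)) (RTy_u h hb 1) x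
    simpa using this
  have hnm : ∀ x, n x = (-(2 * QB b2)⁻¹) • m x := by
    intro x
    rw [hmn, smul_smul, neg_mul_neg, inv_mul_cancel₀ hδ, one_smul]
  have hsym : ∀ x y, polar QA (m x) y = polar QA x (m y) := by
    intro x y
    have := hrel x y
    rw [hmn x, polar_smul_left, smul_eq_mul]
    linear_combination -this
  have hcomm : ∀ a w x, m (T QA a w (m ((T QA a w)⁻¹ x))) = T QA a w (m ((T QA a w)⁻¹ (m x))) := by
    intro a w x
    have hα : h.tm (T QA a w) 1 ∈ L := hL.tA h hG a w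
    have hr' := L.mul_mem (L.mul_mem hα hr) (L.inv_mem hα)
    have := hR.comm h hb hZ hr hr' (hR.conj h (T QA a w)) x
    simp only [LinearMap.comp_apply, LinearEquiv.coe_coe] at this
    rw [hnm x, hnm] at this
    simp only [map_smul] at this
    exact smul_right_injective A (neg_ne_zero.2 (inv_ne_zero hδ)) this
  obtain ⟨μ, hμ⟩ := scalar_of_comm hF h.two ha hd h.nA hsym hcomm
  refine ⟨-(μ * (2 * QB b2)⁻¹), ?_⟩
  set c := -(μ * (2 * QB b2)⁻¹) with hc
  set u := h.tm 1 (T QB b1 (c • b2)) with hu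
  have hUL : u ∈ L := hL.tB h hG b1 (c • b2)
  have hRu := RTy_u h hb c
  rw [← hu] at hRu
  have hg : r * u⁻¹ = 1 := by
    have hgg : ∀ v, (r * u⁻¹) (u v) = r v := by
      intro v
      show r (u⁻¹ (u v)) = _
      have : u⁻¹ (u v) = v := LinearEquiv.symm_apply_apply u v
      rw [this]
    have hg1 : ∀ x, (r * u⁻¹) (ten x b1) = ten x b1 := by
      intro x
      have := hgg (ten x b1)
      rwa [hRu.one, hR.one] at this
    refine hZ _ (L.mul_mem hr (L.inv_mem hUL)) hg1 fun x => ?_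
    have := hgg (ten x b2)
    rw [hRu.two, hR.two, map_add, hg1, hμ] at this
    have e : ((-(c * (2 * QB b2))) • (LinearMap.id : A →ₗ[F] A)) x = μ • x := by
      rw [LinearMap.smul_apply, LinearMap.id_apply, hc, neg_mul, neg_neg, mul_assoc,
        inv_mul_cancel₀ hδ, mul_one]
    rw [e] at this
    exact add_right_cancel this
  exact mul_inv_eq_one.1 hg

end Cfsg.Agent.H922.Ten
end

-- part: H922/TenStab
section
/-!
Tensor decompositions `V = A ⊗ B`, `dim A = dim B = 3`: the stabiliser of `A ⊗ b` in a proper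
overgroup is decomposable.
-/

set_option autoImplicit false
set_option linter.unusedSectionVars false

namespace Cfsg.Agent.H922.Ten

open QuadraticMap Cfsg.Agent.LieClassical.OrthCore Cfsg.Agent.LieClassical.OrthTrans
  Cfsg.Agent.LieClassical.OrthSimple Cfsg.Agent.ClassicalGeometry.OrthAutBasic
  Cfsg.Agent.H887.SiegelMethod

variable {F V A B : Type*} [Field F] [AddCommGroup V] [Module F V] [AddCommGroup A] [Module F A]
  [AddCommGroup B] [Module F B] {Q : QuadraticForm F V} {QA : QuadraticForm F A}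
  {QB : QuadraticForm F B} {ten : A →ₗ[F] B →ₗ[F] V}

variable {a1 a2 a3 : A} {b1 b2 b3 : B}

/-- The isometry `b1 ↦ c b1`, `b2 ↦ b2`, `b3 ↦ c⁻¹ b3`. -/
theorem exists_dg (h2 : (2 : F) ≠ 0) (hb : HB QB b1 b2 b3) {c : F} (hc : c ≠ 0) :
    ∃ β : B ≃ₗ[F] B, β ∈ O QB ∧ β b1 = c • b1 ∧ β b2 = b2 ∧ β b3 = c⁻¹ • b3 := by
  have hδ : (2 * QB b2) ≠ 0 := mul_ne_zero h2 hb.q2
  let dg : F → B →ₗ[F] B := fun c =>
    (c • polarBilin QB b3).smulRight b1 + ((2 * QB b2)⁻¹ • polarBilin QB b2).smulRight b2 +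
      (c⁻¹ • polarBilin QB b1).smulRight b3
  have hdg : ∀ c y, dg c y = (c * polar QB b3 y) • b1 + ((2 * QB b2)⁻¹ * polar QB b2 y) • b2 +
      (c⁻¹ * polar QB b1 y) • b3 := by
    intro c y
    simp [dg]
  have h1 : ∀ c, dg c b1 = c • b1 := by
    intro c
    rw [hdg, hb.p31, hb.p21, hb.p11]
    simp
  have h2 : ∀ c, dg c b2 = b2 := by
    intro c
    rw [hdg, hb.p32, hb.p22, hb.p12, inv_mul_cancel₀ hδ]
    simp
  have h3 : ∀ c, dg c b3 = c⁻¹ • b3 := by
    intro c
    rw [hdg, hb.p33, hb.p23, hb.p13]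
    simp
  have hcomp : ∀ c : F, c ≠ 0 → dg c ∘ₗ dg c⁻¹ = LinearMap.id := by
    intro c hc
    refine hb.ext ?_ ?_ ?_
    · rw [LinearMap.comp_apply, h1, map_smul, h1, smul_smul, inv_mul_cancel₀ hc, one_smul]
      rfl
    · rw [LinearMap.comp_apply, h2, h2]
      rfl
    · rw [LinearMap.comp_apply, h3, map_smul, h3, smul_smul, inv_inv, mul_inv_cancel₀ hc, one_smul]
      rfl
  have hcomp' : dg c⁻¹ ∘ₗ dg c = LinearMap.id := by
    have := hcomp c⁻¹ (inv_ne_zero hc)
    rwa [inv_inv] at this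
  refine ⟨LinearEquiv.ofLinearMap (dg c) (dg c⁻¹) (hcomp c hc) hcomp', ?_, h1 c, h2 c, h3 c⟩
  intro y
  show QB (dg c y) = QB y
  conv_rhs => rw [hb.span y]
  rw [hdg, hb.Q_eq, hb.Q_eq]
  have : c * c⁻¹ = 1 := mul_inv_cancel₀ hc
  linear_combination (polar QB b3 y * polar QB b1 y) * this

/-- `g - 1`. -/
def nm (g : V ≃ₗ[F] V) : V →ₗ[F] V := g.toLinearMap - LinearMap.id

theorem nm_apply (g : V ≃ₗ[F] V) (v : V) : nm g v = g v - v := rfl

/-- Unipotent elements have order a power of `p`. -/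
theorem pow_char_eq_one [Nontrivial V] {p : ℕ} [Fact p.Prime] [CharP F p] (hp3 : 3 ≤ p)
    {g : V ≃ₗ[F] V}
    (hg : ∀ v, nm g (nm g (nm g v)) = 0) : g ^ p = 1 := by
  have hch : CharP (Module.End F V) p :=
    charP_of_injective_algebraMap (algebraMap F (Module.End F V)).injective p
  set G : Module.End F V := g.toLinearMap with hG
  have h3 : (G - 1) ^ 3 = 0 := by
    ext v
    rw [pow_succ, pow_two]
    exact hg v
  have hp : (G - 1) ^ p = 0 := by
    obtain ⟨k, rfl⟩ := Nat.exists_eq_add_of_le hp3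
    rw [pow_add, h3, zero_mul]
  have h4 : (G - 1) ^ p = G ^ p - 1 ^ p := sub_pow_char_of_commute _ (Commute.one_right G)
  rw [hp, one_pow] at h4
  have h5 : G ^ p = 1 := (sub_eq_zero.1 h4.symm)
  have h6 : ∀ n : ℕ, ((g ^ n : V ≃ₗ[F] V) : V →ₗ[F] V) = G ^ n := by
    intro n
    induction n with
    | zero => rfl
    | succ n ih =>
      rw [pow_succ, pow_succ, ← ih]
      rfl
  ext v
  have := LinearMap.congr_fun ((h6 p).trans h5) v
  exact this

/-- An `RTy` isometry is in `E Q`. -/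
theorem RTy.mem_E [Finite F] (h : TD Q QA QB ten) (hG : Good Q) (hb : HB QB b1 b2 b3)
    {r : V ≃ₗ[F] V} (hr : r ∈ O Q) {m n k : A →ₗ[F] A} (hR : RTy ten b1 b2 b3 r m n k) :
    r ∈ E Q := by
  have : FiniteDimensional F V := Module.finite_of_finrank_pos (by have := hG.dim; omega)
  have : Nontrivial V := Module.nontrivial_of_finrank_pos (R := F) (by have := hG.dim; omega)
  obtain ⟨p, hp⟩ := CharP.exists F
  have hpp : p.Prime := CharP.char_is_prime F p
  have : Fact p.Prime := ⟨hpp⟩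
  have hp2 : p ≠ 2 := by
    rintro rfl
    exact h.two (by exact_mod_cast CharP.cast_eq_zero F 2)
  have hodd : Odd p := hpp.odd_of_ne_two hp2
  have hp3 : 3 ≤ p := by
    have := hpp.two_le
    omega
  refine mem_E_of_pow hG hr hodd (pow_char_eq_one hp3 fun v => ?_)
  have e1 : ∀ x, nm r (ten x b1) = 0 := by
    intro x
    rw [nm_apply, hR.one, sub_self]
  have e2 : ∀ x, nm r (ten x b2) = ten (m x) b1 := by
    intro x
    rw [nm_apply, hR.two, add_sub_cancel_left]
  have e3 : ∀ x, nm r (ten x b3) = ten (n x) b2 + ten (k x) b1 := by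
    intro x
    rw [nm_apply, hR.three, add_assoc, add_sub_cancel_left]
  rw [h.decomp hb v]
  simp only [map_add, e1, e2, e3, map_zero, zero_add, add_zero]

/-- **(2)** The stabiliser of `A ⊗ b1` in a proper overgroup is decomposable. -/
theorem dec_of_stab [Finite F] [FiniteDimensional F A] (hF : 5 ≤ Nat.card F)
    (h : TD Q QA QB ten) {L : Subgroup (V ≃ₗ[F] V)}
    (hL : Ov Q ten L) (hG : Good Q) (hne : ¬ E Q ≤ L) (ha : HB QA a1 a2 a3)
    (hd : Module.finrank F A = 3) (hb : HB QB b1 b2 b3) {g : V ≃ₗ[F] V}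
    (hg : g ∈ L) (h1 : ∀ x, ∃ y, g (ten x b1) = ten y b1) : Dec ten g := by
  have hδ : (2 * QB b2) ≠ 0 := mul_ne_zero h.two hb.q2
  have hgO := hL.leO hg
  -- `g` on `A ⊗ b1`
  let g1 : A →ₗ[F] A := h.pb b3 ∘ₗ g.toLinearMap ∘ₗ ten.flip b1
  have hg1 : ∀ x, g (ten x b1) = ten (g1 x) b1 := by
    intro x
    obtain ⟨y, hy⟩ := h1 x
    have : g1 x = h.pb b3 (g (ten x b1)) := rfl
    rw [this, hy, h.pb_ten, hb.p31, one_smul]
  have hinj1 : Function.Injective g1 := by
    intro x y hxy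
    have := hg1 x
    rw [hxy, ← hg1 y] at this
    exact h.ten_inj hb.hyp.left_ne (g.injective this)
  have hsurj1 : Function.Surjective g1 := LinearMap.injective_iff_surjective.1 hinj1
  -- `g` on `A ⊗ b2`
  let g2 : A →ₗ[F] A := (2 * QB b2)⁻¹ • (h.pb b2 ∘ₗ g.toLinearMap ∘ₗ ten.flip b2)
  let g3 : A →ₗ[F] A := h.pb b3 ∘ₗ g.toLinearMap ∘ₗ ten.flip b2
  have hg2 : ∀ x, g (ten x b2) = ten (g2 x) b2 + ten (g3 x) b1 := by
    intro x
    have e1 : h.pb b1 (g (ten x b2)) = 0 := by
      apply h.nA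
      intro y
      obtain ⟨y, rfl⟩ := hsurj1 y
      rw [h.polar_pb, ← hg1, polar_map hgO, h.form, hb.p21, mul_zero]
    have e := h.decomp hb (g (ten x b2))
    rw [e1, map_zero, LinearMap.zero_apply, add_zero] at e
    have e2 : g2 x = (2 * QB b2)⁻¹ • h.pb b2 (g (ten x b2)) := rfl
    have e3 : g3 x = h.pb b3 (g (ten x b2)) := rfl
    rw [e2, e3, add_comm]
    exact e
  have hiso : ∀ x y, polar QA (g2 x) (g2 y) = polar QA x y := by
    intro x y
    have e := polar_map hgO (ten x b2) (ten y b2)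
    rw [hg2, hg2] at e
    simp only [polar_add_left, polar_add_right, h.form, hb.p11, hb.p12, hb.p21, hb.p22, mul_zero,
      add_zero] at e
    exact mul_right_cancel₀ hδ e
  have hinj2 : Function.Injective g2 := by
    intro x y hxy
    have h0 : x - y = 0 := by
      apply h.nA
      intro z
      rw [← hiso, map_sub, hxy, sub_self, polar_zero_left]
    exact sub_eq_zero.1 h0
  have hsurj2 : Function.Surjective g2 := LinearMap.injective_iff_surjective.1 hinj2
  -- `g u g⁻¹`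
  set u := h.tm 1 (T QB b1 ((1 : F) • b2)) with hu
  have hUL : u ∈ L := hL.tB h hG b1 _
  have hRu := RTy_u h hb 1
  rw [← hu] at hRu
  have hrL : g * u * g⁻¹ ∈ L := L.mul_mem (L.mul_mem hg hUL) (L.inv_mem hg)
  have hrg : ∀ v, (g * u * g⁻¹) (g v) = g (u v) := by
    intro v
    show g (u (g⁻¹ (g v))) = _
    have : g⁻¹ (g v) = v := LinearEquiv.symm_apply_apply g v
    rw [this]
  have hr1 : ∀ x, (g * u * g⁻¹) (ten x b1) = ten x b1 := by
    intro x
    obtain ⟨x, rfl⟩ := hsurj1 x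
    rw [← hg1, hrg, hRu.one]
  have hu2 : ∀ x, u (ten x b2) = ten x b2 - ten ((2 * QB b2) • x) b1 := by
    intro x
    rw [hRu.two]
    simp only [LinearMap.smul_apply, LinearMap.id_apply, one_mul, neg_smul, map_neg,
      LinearMap.neg_apply]
    abel
  have hr2 : ∀ x, ∃ y, (g * u * g⁻¹) (ten x b2) = ten x b2 + ten y b1 := by
    intro x
    obtain ⟨x, rfl⟩ := hsurj2 x
    have e : ten (g2 x) b2 = g (ten x b2) - ten (g3 x) b1 := by
      rw [hg2]; abel
    refine ⟨- g1 ((2 * QB b2) • x), ?_⟩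
    conv_lhs => rw [e, map_sub, hrg, hu2, hr1, map_sub, hg1]
    rw [e, map_neg, LinearMap.neg_apply]
    abel
  obtain ⟨c, hc⟩ := rad_eq hF h hL hG hne ha hd hb hrL hr1 hr2
  have hRc := RTy_u h hb c
  rw [← hc] at hRc
  have hc1 : ∀ x, g1 x = c • g2 x := by
    intro x
    have e := hrg (ten x b2)
    rw [hu2, map_sub, hg1, hg2, map_add, hr1, hRc.two] at e
    simp only [LinearMap.smul_apply, LinearMap.id_apply, map_smul, map_neg, LinearMap.neg_apply,
      neg_smul] at e
    have e2 : ten ((2 * QB b2) • (g1 x)) b1 = ten ((2 * QB b2) • (c • g2 x)) b1 := by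
      simp only [map_smul, LinearMap.smul_apply]
      have e3 : ten (g2 x) b2 + -((c * (2 * QB b2)) • ten (g2 x) b1) + ten (g3 x) b1 -
          (ten (g2 x) b2 + ten (g3 x) b1) =
          ten (g2 x) b2 + ten (g3 x) b1 - (2 * QB b2) • ten (g1 x) b1 -
          (ten (g2 x) b2 + ten (g3 x) b1) := by rw [e]
      have e4 : -((c * (2 * QB b2)) • ten (g2 x) b1) = - ((2 * QB b2) • ten (g1 x) b1) := by
        have l : ten (g2 x) b2 + -((c * (2 * QB b2)) • ten (g2 x) b1) + ten (g3 x) b1 -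
          (ten (g2 x) b2 + ten (g3 x) b1) = -((c * (2 * QB b2)) • ten (g2 x) b1) := by abel
        have l' : ten (g2 x) b2 + ten (g3 x) b1 - (2 * QB b2) • ten (g1 x) b1 -
          (ten (g2 x) b2 + ten (g3 x) b1) = - ((2 * QB b2) • ten (g1 x) b1) := by abel
        rw [← l, e3, l']
      rw [neg_inj] at e4
      rw [← e4, smul_smul, mul_comm]
    exact smul_right_injective A hδ (h.ten_inj hb.hyp.left_ne e2)
  have hc0 : c ≠ 0 := by
    rintro rfl
    have := hc1 a1
    rw [zero_smul] at this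
    exact ha.hyp.left_ne (hinj1 (this.trans (map_zero g1).symm))
  -- the model element
  let e2 : A ≃ₗ[F] A := LinearEquiv.ofBijective g2 ⟨hinj2, hsurj2⟩
  have he2 : ∀ x, e2 x = g2 x := fun x => rfl
  have he2O : e2 ∈ O QA := by
    intro x
    have := hiso x x
    rw [polar_self', polar_self'] at this
    exact mul_left_cancel₀ h.two this
  obtain ⟨β, hβO, hβ1, hβ2, hβ3⟩ := exists_dg h.two hb hc0
  set h0 := h.tm e2 β with hh0
  have hh0O : h0 ∈ O Q := h.tm_mem_O he2O hβO
  set r' := h0⁻¹ * g with hr'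
  have hr'O : r' ∈ O Q := (O Q).mul_mem ((O Q).inv_mem hh0O) hgO
  have hh0r : ∀ v w, h0 w = g v → r' v = w := by
    intro v w hvw
    show h0⁻¹ (g v) = w
    rw [← hvw]
    exact LinearEquiv.symm_apply_apply h0 w
  have hr'1 : ∀ x, r' (ten x b1) = ten x b1 := by
    intro x
    apply hh0r
    rw [h.tm_ten, he2, hβ1, hg1, hc1]
    simp
  have hr'2 : ∀ x, ∃ y, r' (ten x b2) = ten x b2 + ten y b1 := by
    intro x
    obtain ⟨y, hy⟩ := hsurj2 (c⁻¹ • g3 x)
    refine ⟨y, ?_⟩
    apply hh0r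
    rw [map_add, h.tm_ten, h.tm_ten, he2, he2, hβ1, hβ2, hy, hg2]
    simp [smul_smul, mul_inv_cancel₀ hc0]
  obtain ⟨m, n, k, hR', -⟩ := exists_RTy h hb hr'O hr'1 hr'2
  have hr'E : r' ∈ E Q := hR'.mem_E h hG hb hr'O
  have hh0E : h0 ∈ E Q := by
    have : h0 = g * r'⁻¹ := by rw [hr']; group
    rw [this]
    exact (E Q).mul_mem (hL.le hg) ((E Q).inv_mem hr'E)
  have hh0L : h0 ∈ L := hL.dec _ hh0E (h.dec_tm _ _)
  have hr'L : r' ∈ L := L.mul_mem (L.inv_mem hh0L) hg
  obtain ⟨c', hc'⟩ := rad_eq hF h hL hG hne ha hd hb hr'L hr'1 hr'2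
  have hg' : g = h0 * r' := by rw [hr']; group
  rw [hg', hc']
  exact (h.dec_tm _ _).mul (h.dec_tm _ _)

end Cfsg.Agent.H922.Ten
end

-- part: H922/TenUnip
section
/-!
Unipotent isometries of three-dimensional spaces, and unipotent decomposable elements.
-/

set_option autoImplicit false
set_option linter.unusedSectionVars false

namespace Cfsg.Agent.H922.Ten

open QuadraticMap Cfsg.Agent.LieClassical.OrthCore Cfsg.Agent.LieClassical.OrthTrans
  Cfsg.Agent.LieClassical.OrthSimple Cfsg.Agent.ClassicalGeometry.OrthAutBasic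
  Cfsg.Agent.H887.SiegelMethod

variable {F V A B : Type*} [Field F] [AddCommGroup V] [Module F V] [AddCommGroup A] [Module F A]
  [AddCommGroup B] [Module F B] {Q : QuadraticForm F V} {QA : QuadraticForm F A}
  {QB : QuadraticForm F B} {ten : A →ₗ[F] B →ₗ[F] V}

variable {a1 a2 a3 : A} {b1 b2 b3 : B}

/-- The scalar with `c ^ p = 1` is `1`. -/
theorem scalar_one {p : ℕ} [Fact p.Prime] [CharP F p] {c : F} (h : c ^ p = 1) : c = 1 := by
  have h1 : (c - 1) ^ p = 0 := by rw [sub_pow_char, h, one_pow, sub_self]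
  exact sub_eq_zero.1 (pow_eq_zero_iff (Fact.out : p.Prime).ne_zero |>.1 h1)

theorem pow_apply_fix {g : B ≃ₗ[F] B} {b : B} {c : F} (h : g b = c • b) (n : ℕ) :
    (g ^ n) b = c ^ n • b := by
  induction n with
  | zero => rw [pow_zero, pow_zero, one_smul]; rfl
  | succ n ih =>
    rw [pow_succ, LinearEquiv.mul_apply, h, map_smul, ih, smul_smul, pow_succ, mul_comm]

theorem fix_of_eigen {p : ℕ} [Fact p.Prime] [CharP F p] {g : B ≃ₗ[F] B} (hg : g ^ p = 1) {b : B}
    (hb0 : b ≠ 0) {c : F} (h : g b = c • b) : g b = b := by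
  have h1 := pow_apply_fix h p
  rw [hg] at h1
  have h2 : (1 - c ^ p) • b = 0 := by
    rw [sub_smul, one_smul, ← h1]
    exact sub_self b
  have h3 := (smul_eq_zero.1 h2).resolve_right hb0
  have h4 : c = 1 := scalar_one (sub_eq_zero.1 h3).symm
  rw [h, h4, one_smul]

/-- A unipotent isometry fixing `b1` is a Siegel element. -/
theorem unip_eq_T {p : ℕ} [Fact p.Prime] [CharP F p] (h2 : (2 : F) ≠ 0) (hb : HB QB b1 b2 b3)
    {g : B ≃ₗ[F] B} (hgO : g ∈ O QB) (hg : g ^ p = 1) (h1 : g b1 = b1) :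
    ∃ c : F, g = T QB b1 (c • b2) := by
  have hδ : (2 * QB b2) ≠ 0 := mul_ne_zero h2 hb.q2
  -- the image of `b2`
  set l := (2 * QB b2)⁻¹ * polar QB b2 (g b2) with hl
  set γ := polar QB b3 (g b2) with hγ
  have e2 : g b2 = γ • b1 + l • b2 := by
    have e := hb.span (g b2)
    have : polar QB b1 (g b2) = 0 := by
      conv_lhs => rw [← h1]
      rw [polar_map hgO, hb.p12]
    rw [this, zero_smul, add_zero] at e
    exact e
  have e2n : ∀ n : ℕ, ∃ c : F, (g ^ n) b2 = c • b1 + (l ^ n) • b2 := by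
    intro n
    induction n with
    | zero => exact ⟨0, by rw [pow_zero, pow_zero, one_smul, zero_smul, zero_add]; rfl⟩
    | succ n ih =>
      obtain ⟨c, hc⟩ := ih
      refine ⟨c + l ^ n * γ, ?_⟩
      have : (g ^ (n + 1)) b2 = g ((g ^ n) b2) := by rw [pow_succ', LinearEquiv.mul_apply]
      rw [this, hc, map_add, map_smul, map_smul, h1, e2]
      module
  have hl1 : l = 1 := by
    obtain ⟨c, hc⟩ := e2n p
    rw [hg] at hc
    have h3 : b2 = c • b1 + l ^ p • b2 := hc
    have h4 := congrArg (polar QB b2) h3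
    rw [polar_add_right, polar_smul_right, polar_smul_right, hb.p21, smul_zero, zero_add, hb.p22,
      smul_eq_mul] at h4
    have h5 : (1 : F) = l ^ p := mul_right_cancel₀ hδ (by rw [one_mul]; exact h4)
    exact scalar_one h5.symm
  rw [hl1, one_smul] at e2
  set c := -(γ * (2 * QB b2)⁻¹) with hc
  have hcδ : c * (2 * QB b2) = -γ := by
    rw [hc, neg_mul, mul_assoc, inv_mul_cancel₀ hδ, mul_one]
  set t := T QB b1 (c • b2) with ht
  have htO : t ∈ O QB := T_mem_O _ _
  have ht1 : t b1 = b1 := T_HB_one hb c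
  have ht2 : t b2 = g b2 := by
    rw [ht, T_HB_two hb, hcδ, e2, neg_smul, sub_neg_eq_add, add_comm]
  -- `t⁻¹ g` fixes everything
  have hs1 : (t⁻¹ * g) b1 = b1 := by
    show t⁻¹ (g b1) = b1
    rw [h1]
    conv_lhs => rw [← ht1]
    exact LinearEquiv.symm_apply_apply t b1
  have hs2 : (t⁻¹ * g) b2 = b2 := by
    show t⁻¹ (g b2) = b2
    rw [← ht2]
    exact LinearEquiv.symm_apply_apply t b2
  have hsO : t⁻¹ * g ∈ O QB := (O QB).mul_mem ((O QB).inv_mem htO) hgO
  have hs3 : (t⁻¹ * g) b3 = b3 := by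
    set y := (t⁻¹ * g) b3 with hy
    have y1 : polar QB b1 y = 1 := by
      rw [hy]
      conv_lhs => rw [← hs1]
      rw [polar_map hsO, hb.p13]
    have y2 : polar QB b2 y = 0 := by
      rw [hy]
      conv_lhs => rw [← hs2]
      rw [polar_map hsO, hb.p23]
    have yQ : QB y = 0 := by rw [hy, mem_O.1 hsO, hb.hyp.right]
    have e := hb.span y
    rw [y1, y2, mul_zero] at e
    rw [e, hb.Q_eq] at yQ
    have y3 : polar QB b3 y = 0 := by linear_combination yQ
    rw [e, y3]
    simp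
  have hone : t⁻¹ * g = 1 := by
    have : (t⁻¹ * g : B ≃ₗ[F] B).toLinearMap = LinearMap.id := by
      refine hb.ext ?_ ?_ ?_
      · exact hs1
      · exact hs2
      · exact hs3
    ext y
    exact LinearMap.congr_fun this y
  exact ⟨c, (inv_mul_eq_one.1 hone).symm⟩

/-- A unipotent isometry, not the identity, fixes a singular vector. -/
theorem exists_fix_sing {p : ℕ} [Fact p.Prime] [CharP F p] (h2 : (2 : F) ≠ 0) [Nontrivial B]
    {g : B ≃ₗ[F] B} (hgO : g ∈ O QB) (hg : g ^ p = 1) (h1 : g ≠ 1) :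
    ∃ b, b ≠ 0 ∧ QB b = 0 ∧ g b = b := by
  have hch : CharP (Module.End F B) p :=
    charP_of_injective_algebraMap (algebraMap F (Module.End F B)).injective p
  set G : Module.End F B := g.toLinearMap with hG
  have h6 : ∀ n : ℕ, ((g ^ n : B ≃ₗ[F] B) : B →ₗ[F] B) = G ^ n := by
    intro n
    induction n with
    | zero => rfl
    | succ n ih =>
      rw [pow_succ, pow_succ, ← ih]
      rfl
  have hGp : G ^ p = 1 := by
    rw [← h6, hg]
    rfl
  let N : Module.End F B := G - 1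
  have hN : N ^ p = 0 := by
    rw [sub_pow_char_of_commute _ (Commute.one_right G), hGp, one_pow, sub_self]
  have hNv : ∀ v, N v = g v - v := fun v => rfl
  obtain ⟨v, hv⟩ : ∃ v, N v ≠ 0 := by
    by_contra hcon
    push Not at hcon
    apply h1
    ext v
    exact sub_eq_zero.1 (hcon v)
  have hsucc : ∀ (i : ℕ) (y : B), (N ^ (i + 1)) y = N ((N ^ i) y) := fun i y => by
    rw [pow_succ']
    rfl
  have hsucc' : ∀ (i : ℕ) (y : B), (N ^ (i + 1)) y = (N ^ i) (N y) := fun i y => by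
    rw [pow_succ]
    rfl
  -- the last non-zero power
  classical
  have hex : ∃ n, (N ^ n) v = 0 := ⟨p, by rw [hN]; rfl⟩
  set n := Nat.find hex with hn
  have hn0 : (N ^ n) v = 0 := Nat.find_spec hex
  have hn2 : 2 ≤ n := by
    by_contra hlt
    push Not at hlt
    have hv0 : v ≠ 0 := by
      rintro rfl
      exact hv (map_zero _)
    interval_cases h : n
    · exact hv0 hn0
    · rw [pow_one] at hn0
      exact hv hn0
  obtain ⟨k, hk⟩ : ∃ k, n = k + 1 := ⟨n - 1, by omega⟩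
  have hk1 : 1 ≤ k := by omega
  have hmin : (N ^ k) v ≠ 0 := Nat.find_min hex (by omega)
  refine ⟨(N ^ k) v, hmin, ?_, ?_⟩
  · -- singular
    have hadj : ∀ x y, polar QB (N x) y = - polar QB x (N ((g⁻¹ : B ≃ₗ[F] B) y)) := by
      intro x y
      have e1 : g ((g⁻¹ : B ≃ₗ[F] B) y) = y := LinearEquiv.apply_symm_apply g y
      rw [hNv, hNv, e1, polar_sub_left, polar_sub_right]
      have e2 : polar QB (g x) y = polar QB x ((g⁻¹ : B ≃ₗ[F] B) y) := by
        conv_lhs => rw [← e1]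
        rw [polar_map hgO]
      rw [e2]
      ring
    have hcomm : ∀ y, N ((g⁻¹ : B ≃ₗ[F] B) y) = (g⁻¹ : B ≃ₗ[F] B) (N y) := by
      intro y
      have e1 : g ((g⁻¹ : B ≃ₗ[F] B) y) = y := LinearEquiv.apply_symm_apply g y
      have e2 : (g⁻¹ : B ≃ₗ[F] B) (g y) = y := LinearEquiv.symm_apply_apply g y
      rw [hNv, hNv, e1, map_sub, e2]
    have hc : ∀ (i : ℕ) (y : B), (N ^ i) ((g⁻¹ : B ≃ₗ[F] B) y) =
        (g⁻¹ : B ≃ₗ[F] B) ((N ^ i) y) := by
      intro i
      induction i with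
      | zero => intro y; rfl
      | succ i ihi =>
        intro y
        rw [hsucc', hcomm, ihi, hsucc']
    -- `polar (N^m x) y = 0` if `N^m y = 0`
    have hkey : ∀ (m : ℕ) (x y : B), (N ^ m) y = 0 → polar QB ((N ^ m) x) y = 0 := by
      intro m
      induction m with
      | zero =>
        intro x y hy
        have hy' : y = 0 := hy
        rw [hy', polar_zero_right]
      | succ m ih =>
        intro x y hy
        rw [hsucc, hadj, hcomm, ih, neg_zero]
        rw [hc, ← hsucc', hy, map_zero]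
    have h3 : (N ^ k) ((N ^ k) v) = 0 := by
      have : (N ^ k) ((N ^ k) v) = (N ^ (k - 1)) ((N ^ (k + 1)) v) := by
        have e : N ^ k * N ^ k = N ^ (k - 1) * N ^ (k + 1) := by
          rw [← pow_add, ← pow_add]
          congr 1
          omega
        exact LinearMap.congr_fun e v
      rw [this, ← hk, hn0, map_zero]
    have h4 := hkey k v _ h3
    rw [polar_self'] at h4
    exact (mul_eq_zero.1 h4).resolve_left h2
  · -- fixed
    have : N ((N ^ k) v) = 0 := by
      rw [← hsucc, ← hk, hn0]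
    exact sub_eq_zero.1 this

/-- Normal form of decomposable isometries of order `p`. -/
theorem dec_unip [Finite F] (h : TD Q QA QB ten) {p : ℕ} [Fact p.Prime] [CharP F p]
    [Nontrivial A] [Nontrivial B] {x : V ≃ₗ[F] V} (hxO : x ∈ O Q) (hxp : x ^ p = 1)
    (hx : Dec ten x) :
    ∃ (α : A ≃ₗ[F] A) (β : B ≃ₗ[F] B), α ∈ O QA ∧ β ∈ O QB ∧ α ^ p = 1 ∧ β ^ p = 1 ∧
      ∀ a b, x (ten a b) = ten (α a) (β b) := by
  obtain ⟨α, β, hαβ⟩ := hx
  have hpow : ∀ (α : A ≃ₗ[F] A) (β : B ≃ₗ[F] B), (∀ a b, x (ten a b) = ten (α a) (β b)) →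
      ∀ (n : ℕ) a b, (x ^ n) (ten a b) = ten ((α ^ n) a) ((β ^ n) b) := by
    intro α β hαβ n
    induction n with
    | zero => intro a b; rfl
    | succ n ih =>
      intro a b
      rw [pow_succ', pow_succ', pow_succ', LinearEquiv.mul_apply, ih, hαβ]
      rfl
  -- `α ^ p` is a scalar
  obtain ⟨b0, hb0⟩ := exists_ne (0 : B)
  have hβb0 : (β ^ p) b0 ≠ 0 := fun h0 => hb0 ((LinearEquiv.map_eq_zero_iff _).1 h0)
  obtain ⟨b', hb'⟩ := h.nB.exists_polar_eq hβb0 1
  set μ := polar QB b' b0 with hμ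
  have hμα : ∀ a, (α ^ p) a = μ • a := by
    intro a
    have e := hpow α β hαβ p a b0
    rw [hxp] at e
    have e1 := congrArg (h.pb b') e
    have e2 : h.pb b' ((1 : V ≃ₗ[F] V) (ten a b0)) = μ • a := h.pb_ten b' a b0
    rw [e2, h.pb_ten, polar_comm QB b' ((β ^ p) b0), hb', one_smul] at e1
    exact e1.symm
  obtain ⟨a0, ha0⟩ := exists_ne (0 : A)
  have hμ0 : μ ≠ 0 := by
    intro h0
    have := hμα a0
    rw [h0, zero_smul] at this
    exact ha0 ((LinearEquiv.map_eq_zero_iff _).1 this)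
  -- take a `p`-th root
  obtain ⟨ν, hν⟩ : ∃ ν : F, ν ^ p = μ := by
    have hbij : Function.Bijective (frobenius F p) :=
      (Finite.injective_iff_bijective).1 (frobenius_inj F p)
    obtain ⟨ν, hν⟩ := hbij.2 μ
    exact ⟨ν, hν⟩
  have hν0 : ν ≠ 0 := by
    rintro rfl
    rw [zero_pow (Fact.out : p.Prime).ne_zero] at hν
    exact hμ0 hν.symm
  let α' : A ≃ₗ[F] A := α.trans (LinearEquiv.smulOfNeZero F A ν⁻¹ (inv_ne_zero hν0))
  let β' : B ≃ₗ[F] B := β.trans (LinearEquiv.smulOfNeZero F B ν hν0)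
  have hα' : ∀ a, α' a = ν⁻¹ • α a := fun a => rfl
  have hβ' : ∀ b, β' b = ν • β b := fun b => rfl
  have hx' : ∀ a b, x (ten a b) = ten (α' a) (β' b) := by
    intro a b
    rw [hαβ, hα', hβ', map_smul, map_smul, LinearMap.smul_apply, smul_smul, mul_inv_cancel₀ hν0,
      one_smul]
  have hα'p : α' ^ p = 1 := by
    have hn : ∀ n : ℕ, ∀ a, (α' ^ n) a = (ν⁻¹) ^ n • (α ^ n) a := by
      intro n
      induction n with
      | zero => intro a; rw [pow_zero, pow_zero, pow_zero, one_smul]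
      | succ n ih =>
        intro a
        rw [pow_succ', pow_succ', pow_succ', LinearEquiv.mul_apply, LinearEquiv.mul_apply, ih,
          map_smul, hα', smul_smul, mul_comm]
    ext a
    rw [hn, hμα, smul_smul, ← hν, ← mul_pow, inv_mul_cancel₀ hν0, one_pow, one_smul]
    rfl
  have hβ'p : β' ^ p = 1 := by
    ext b
    have e := hpow α' β' hx' p a0 b
    rw [hxp, hα'p] at e
    have e1 : ten.flip b a0 = ten.flip ((β' ^ p) b) a0 := e
    have e2 := h.flip.ten_inj ha0 (x := b) (y := (β' ^ p) b) e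
    exact e2.symm
  -- isometries
  have hiso : ∀ a a' b b', polar QA (α' a) (α' a') * polar QB (β' b) (β' b') =
      polar QA a a' * polar QB b b' := by
    intro a a' b b'
    rw [← h.form, ← hx', ← hx', polar_map hxO, h.form]
  have hsim : ∃ κ : F, ∀ a a', polar QA (α' a) (α' a') = κ * polar QA a a' := by
    obtain ⟨b1, hb1⟩ := h.nB.exists_polar_eq (x := β' b0)
      (fun h0 => hb0 ((LinearEquiv.map_eq_zero_iff _).1 h0)) 1
    obtain ⟨b1, rfl⟩ := β'.surjective b1
    refine ⟨polar QB b0 b1, fun a a' => ?_⟩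
    have := hiso a a' b0 b1
    rw [hb1, mul_one] at this
    rw [this, mul_comm]
  obtain ⟨κ, hκ⟩ := hsim
  have hκ1 : κ = 1 := by
    have hn : ∀ n : ℕ, ∀ a a', polar QA ((α' ^ n) a) ((α' ^ n) a') = κ ^ n * polar QA a a' := by
      intro n
      induction n with
      | zero => intro a a'; rw [pow_zero, pow_zero, one_mul]; rfl
      | succ n ih =>
        intro a a'
        rw [pow_succ', LinearEquiv.mul_apply, LinearEquiv.mul_apply, hκ, ih, pow_succ']
        ring
    obtain ⟨a1, ha1⟩ := h.nA.exists_polar_eq ha0 1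
    have := hn p a0 a1
    rw [hα'p, ha1, mul_one] at this
    have h5 : polar QA ((1 : A ≃ₗ[F] A) a0) ((1 : A ≃ₗ[F] A) a1) = polar QA a0 a1 := rfl
    rw [h5, ha1] at this
    exact scalar_one this.symm
  rw [hκ1] at hκ
  simp only [one_mul] at hκ
  refine ⟨α', β', ?_, ?_, hα'p, hβ'p, hx'⟩
  · intro a
    have := hκ a a
    rw [polar_self', polar_self'] at this
    exact mul_left_cancel₀ h.two this
  · obtain ⟨a1, ha1⟩ := h.nA.exists_polar_eq ha0 1
    intro b
    have := hiso a0 a1 b b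
    rw [hκ, ha1, one_mul, one_mul, polar_self', polar_self'] at this
    exact mul_left_cancel₀ h.two this

end Cfsg.Agent.H922.Ten
end

-- part: H922/TenFus
section
/-!
Tensor decompositions `V = A ⊗ B`, `dim A = dim B = 3`: fusion. If `L` is a proper overgroup,
`d = 1 ⊗ T b1 (c b2) ≠ 1`, `g ∈ L` and `g⁻¹ d g` preserves the decomposition, then so does `g`.
-/

set_option autoImplicit false
set_option linter.unusedSectionVars false

namespace Cfsg.Agent.H922.Ten

open QuadraticMap Cfsg.Agent.LieClassical.OrthCore Cfsg.Agent.LieClassical.OrthTrans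
  Cfsg.Agent.LieClassical.OrthSimple Cfsg.Agent.ClassicalGeometry.OrthAutBasic
  Cfsg.Agent.H887.SiegelMethod

variable {F V A B : Type*} [Field F] [AddCommGroup V] [Module F V] [AddCommGroup A] [Module F A]
  [AddCommGroup B] [Module F B] {Q : QuadraticForm F V} {QA : QuadraticForm F A}
  {QB : QuadraticForm F B} {ten : A →ₗ[F] B →ₗ[F] V}

variable {a1 a2 a3 : A} {b1 b2 b3 : B}

/-- `g` preserves the decomposition. -/
def DS (ten : A →ₗ[F] B →ₗ[F] V) (g : V ≃ₗ[F] V) : Prop := Dec ten g ∨ Sw ten g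

theorem dec_one : Dec ten (1 : V ≃ₗ[F] V) := ⟨1, 1, fun _ _ => rfl⟩

theorem DS.mul {g g' : V ≃ₗ[F] V} (hg : DS ten g) (hg' : DS ten g') : DS ten (g * g') := by
  rcases hg with hg | hg <;> rcases hg' with hg' | hg'
  · exact Or.inl (hg.mul hg')
  · exact Or.inr (hg.mul_sw hg')
  · exact Or.inr (hg.mul_dec hg')
  · exact Or.inl (hg.mul hg')

theorem DS.inv {g : V ≃ₗ[F] V} (hg : DS ten g) : DS ten g⁻¹ := by
  rcases hg with hg | hg
  · exact Or.inl hg.inv
  · exact Or.inr hg.inv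

theorem DS.pow {g : V ≃ₗ[F] V} (hg : DS ten g) (n : ℕ) : DS ten (g ^ n) := by
  induction n with
  | zero => exact Or.inl dec_one
  | succ n ih => rw [pow_succ]; exact ih.mul hg

theorem DS.mul_self {g : V ≃ₗ[F] V} (hg : DS ten g) : Dec ten (g * g) := by
  rcases hg with hg | hg
  · exact hg.mul hg
  · exact hg.mul hg

theorem DS.dec_of_pow {g : V ≃ₗ[F] V} (hg : DS ten g) {p : ℕ} (hp : Odd p) (h : g ^ p = 1) :
    Dec ten g := by
  obtain ⟨k, rfl⟩ := hp
  have e : g = g ^ (k + 1) * g ^ (k + 1) := by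
    rw [← pow_add]
    have : k + 1 + (k + 1) = (2 * k + 1) + 1 := by ring
    rw [this, pow_succ, h, one_mul]
  rw [e]
  exact (hg.pow (k + 1)).mul_self

/-- `f ⊗ 1`. -/
noncomputable def TD.mA (h : TD Q QA QB ten) (f : A →ₗ[F] A) : V →ₗ[F] V := h.tl (ten ∘ₗ f)

theorem TD.mA_ten (h : TD Q QA QB ten) (f : A →ₗ[F] A) (a : A) (b : B) :
    h.mA f (ten a b) = ten (f a) b := by
  rw [TD.mA, h.tl_ten]
  rfl

/-- `1 ⊗ f`. -/
noncomputable def TD.mB (h : TD Q QA QB ten) (f : B →ₗ[F] B) : V →ₗ[F] V :=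
  h.tl ((LinearMap.lcomp F V f) ∘ₗ ten)

theorem TD.mB_ten (h : TD Q QA QB ten) (f : B →ₗ[F] B) (a : A) (b : B) :
    h.mB f (ten a b) = ten a (f b) := by
  rw [TD.mB, h.tl_ten]
  rfl

/-- The nilpotent operator of the Siegel group. -/
def nu (QB : QuadraticForm F B) (b1 b2 : B) : B →ₗ[F] B := wd QB b1 b2

/-- The quadratic part. -/
def nu2 (QB : QuadraticForm F B) (b1 b2 : B) : B →ₗ[F] B :=
  (-(QB b2)) • (polarBilin QB b1).smulRight b1

theorem T_poly (hb : HB QB b1 b2 b3) (r : F) (y : B) :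
    T QB b1 (r • b2) y = y + r • nu QB b1 b2 y + r ^ 2 • nu2 QB b1 b2 y := by
  rw [T_apply hb.hyp.left (by rw [polar_smul_right, hb.p12, smul_zero]), nu, nu2, wd_apply,
    QuadraticMap.map_smul, polar_smul_left]
  simp only [LinearMap.smul_apply, LinearMap.smulRight_apply, polarBilin_apply_apply, smul_eq_mul]
  module

theorem TD.tmA_poly (h : TD Q QA QB ten) (ha : HB QA a1 a2 a3) (r : F) (v : V) :
    h.tm (T QA a1 (r • a2)) 1 v = v + r • h.mA (nu QA a1 a2) v + r ^ 2 • h.mA (nu2 QA a1 a2) v := by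
  have : (h.tm (T QA a1 (r • a2)) 1).toLinearMap =
      LinearMap.id + r • h.mA (nu QA a1 a2) + r ^ 2 • h.mA (nu2 QA a1 a2) := by
    refine h.ext fun a b => ?_
    simp only [LinearEquiv.coe_coe, LinearMap.add_apply, LinearMap.smul_apply, LinearMap.id_apply]
    rw [h.tm_ten, h.mA_ten, h.mA_ten, T_poly ha]
    simp only [map_add, map_smul, LinearMap.add_apply, LinearMap.smul_apply]
    rfl
  exact LinearMap.congr_fun this v

theorem TD.tmB_poly (h : TD Q QA QB ten) (hb : HB QB b1 b2 b3) (r : F) (v : V) :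
    h.tm 1 (T QB b1 (r • b2)) v = v + r • h.mB (nu QB b1 b2) v + r ^ 2 • h.mB (nu2 QB b1 b2) v := by
  have : (h.tm 1 (T QB b1 (r • b2))).toLinearMap =
      LinearMap.id + r • h.mB (nu QB b1 b2) + r ^ 2 • h.mB (nu2 QB b1 b2) := by
    refine h.ext fun a b => ?_
    simp only [LinearEquiv.coe_coe, LinearMap.add_apply, LinearMap.smul_apply, LinearMap.id_apply]
    rw [h.tm_ten, h.mB_ten, h.mB_ten, T_poly hb]
    simp only [map_add, map_smul]
    rfl
  exact LinearMap.congr_fun this v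

/-- A vector fixed by an elementary abelian group of unipotent elements. -/
theorem exists_common_fix [Finite F] [Finite A] {p : ℕ} [Fact p.Prime] [CharP F p] [Nontrivial A]
    {α : F → (A ≃ₗ[F] A)} (hadd : ∀ r r', α (r + r') = α r * α r') (hp : ∀ r, α r ^ p = 1) :
    ∃ a, a ≠ 0 ∧ ∀ r, α r a = a := by
  have h0 : α 0 = 1 := by
    have := hadd 0 0
    rw [add_zero] at this
    exact (mul_eq_left.1 this.symm)
  let Γ : Subgroup (A ≃ₗ[F] A) :=
    { carrier := Set.range α
      mul_mem' := by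
        rintro _ _ ⟨r, rfl⟩ ⟨r', rfl⟩
        exact ⟨r + r', hadd r r'⟩
      one_mem' := ⟨0, h0⟩
      inv_mem' := by
        rintro _ ⟨r, rfl⟩
        refine ⟨-r, ?_⟩
        rw [eq_inv_iff_mul_eq_one, ← hadd, neg_add_cancel, h0] }
  have hΓ : IsPGroup p Γ := by
    rintro ⟨_, ⟨r, rfl⟩⟩
    exact ⟨1, by rw [pow_one]; exact Subtype.ext (hp r)⟩
  have hpA : p ∣ Nat.card A := by
    have : Fintype A := Fintype.ofFinite A
    obtain ⟨a, ha⟩ := exists_ne (0 : A)
    have hpa : addOrderOf a = p := by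
      have h1 : p • a = 0 := by
        rw [← Nat.cast_smul_eq_nsmul F, CharP.cast_eq_zero, zero_smul]
      exact addOrderOf_eq_prime h1 ha
    rw [← hpa]
    exact addOrderOf_dvd_natCard a
  have hfix0 : (0 : A) ∈ MulAction.fixedPoints Γ A := fun γ => map_zero (γ : A ≃ₗ[F] A)
  obtain ⟨a, ha, hne⟩ := hΓ.exists_fixed_point_of_prime_dvd_card_of_fixed_point A hpA hfix0
  exact ⟨a, hne.symm, fun r => ha ⟨α r, r, rfl⟩⟩

/-- One-parameter groups in `O(A) × U_b`. -/
theorem lin_or [Finite F] (hF : 5 ≤ Nat.card F) (h : TD Q QA QB ten) [Finite A] [Nontrivial A]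
    {p : ℕ} [Fact p.Prime] [CharP F p] (hb : HB QB b1 b2 b3) {z : F → (V ≃ₗ[F] V)}
    {α : F → (A ≃ₗ[F] A)} {φ : F → F} {X X2 : V →ₗ[F] V}
    (hz : ∀ r v, z r v = v + r • X v + r ^ 2 • X2 v)
    (hzt : ∀ r a b, z r (ten a b) = ten (α r a) (T QB b1 (φ r • b2) b))
    (hadd : ∀ r r', α (r + r') = α r * α r') (hφ : ∀ r r', φ (r + r') = φ r + φ r')
    (hp : ∀ r, α r ^ p = 1) :
    ∃ f : F, (∀ r, φ r = f * r) ∧ (f ≠ 0 → ∀ r, α r = 1) := by
  obtain ⟨a0, ha0, hfix⟩ := exists_common_fix hadd hp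
  have hδ : (2 * QB b2) ≠ 0 := mul_ne_zero h.two hb.q2
  -- `φ` is linear
  obtain ⟨a', ha'⟩ := h.nA.exists_polar_eq ha0 1
  have hφ0 : φ 0 = 0 := by
    have := hφ 0 0
    rw [add_zero] at this
    linear_combination -this
  have hφneg : ∀ r, φ (-r) = - φ r := by
    intro r
    have := hφ r (-r)
    rw [add_neg_cancel, hφ0] at this
    linear_combination -this
  have h2 : ∀ r, (2 * QB b2) * φ r = r * polar QA (h.pb b2 (X (ten a0 b3))) a' +
      r ^ 2 * polar QA (h.pb b2 (X2 (ten a0 b3))) a' := by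
    intro r
    have e := congrArg (h.pb b2) ((hzt r a0 b3).symm.trans (hz r (ten a0 b3)))
    rw [T_HB_three hb, h.pb_ten, polar_sub_right, polar_add_right, polar_smul_right,
      polar_smul_right, hb.p23, hb.p22, hb.p21, hfix, map_add, map_add, map_smul, map_smul,
      h.pb_ten, hb.p23] at e
    have e2 := congrArg (fun x => polar QA x a') e
    simp only [polar_add_left, polar_smul_left, smul_eq_mul, ha', zero_mul, zero_add, mul_zero,
      sub_zero, mul_one] at e2
    linear_combination e2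
  set u1 := polar QA (h.pb b2 (X (ten a0 b3))) a' with hu1
  set u2 := polar QA (h.pb b2 (X2 (ten a0 b3))) a' with hu2
  have hu20 : u2 = 0 := by
    have e1 := h2 1
    have e2 := h2 (-1)
    rw [hφneg] at e2
    have : 2 * u2 = 0 := by linear_combination -e1 - e2
    exact (mul_eq_zero.1 this).resolve_left h.two
  refine ⟨(2 * QB b2)⁻¹ * u1, fun r => ?_, ?_⟩
  · have e := h2 r
    rw [hu20, mul_zero, add_zero] at e
    have : φ r = (2 * QB b2)⁻¹ * ((2 * QB b2) * φ r) := by
      rw [← mul_assoc, inv_mul_cancel₀ hδ, one_mul]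
    rw [this, e]
    ring
  · intro hf r
    set f := (2 * QB b2)⁻¹ * u1 with hfdef
    have hφr : ∀ r, φ r = f * r := by
      intro r
      have e := h2 r
      rw [hu20, mul_zero, add_zero] at e
      have : φ r = (2 * QB b2)⁻¹ * ((2 * QB b2) * φ r) := by
        rw [← mul_assoc, inv_mul_cancel₀ hδ, one_mul]
      rw [this, e, hfdef]
      ring
    -- `α r` is polynomial
    have hα : ∀ r a, α r a = a + r • h.pb b1 (X (ten a b3)) + r ^ 2 • h.pb b1 (X2 (ten a b3)) := by
      intro r a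
      have e := congrArg (h.pb b1) ((hzt r a b3).symm.trans (hz r (ten a b3)))
      rw [T_HB_three hb, h.pb_ten, polar_sub_right, polar_add_right, polar_smul_right,
        polar_smul_right, hb.p13, hb.p12, hb.p11, map_add, map_add, map_smul, map_smul,
        h.pb_ten, hb.p13] at e
      simpa using e
    have hα3 : ∀ r a, (-((f * r) ^ 2 * QB b2)) • α r a = r • h.pb b3 (X (ten a b3)) +
        r ^ 2 • h.pb b3 (X2 (ten a b3)) := by
      intro r a
      have e := congrArg (h.pb b3) ((hzt r a b3).symm.trans (hz r (ten a b3)))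
      rw [T_HB_three hb, h.pb_ten, polar_sub_right, polar_add_right, polar_smul_right,
        polar_smul_right, hb.p33, hb.p32, hb.p31, map_add, map_add, map_smul, map_smul,
        h.pb_ten, hb.p33, hφr] at e
      simpa using e
    ext a
    have hX : h.pb b1 (X (ten a b3)) = 0 ∧ h.pb b1 (X2 (ten a b3)) = 0 := by
      have key : ∀ y, polar QA (h.pb b1 (X (ten a b3))) y = 0 ∧
          polar QA (h.pb b1 (X2 (ten a b3))) y = 0 := by
        intro y
        have hpoly : ∀ r : F, 0 + (polar QA (h.pb b3 (X (ten a b3))) y) * r +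
            (polar QA (h.pb b3 (X2 (ten a b3))) y + f ^ 2 * QB b2 * polar QA a y) * r ^ 2 +
            (f ^ 2 * QB b2 * polar QA (h.pb b1 (X (ten a b3))) y) * r ^ 3 +
            (f ^ 2 * QB b2 * polar QA (h.pb b1 (X2 (ten a b3))) y) * r ^ 4 = 0 := by
          intro r
          have e := congrArg (fun x => polar QA x y) (hα3 r a)
          rw [hα] at e
          simp only [polar_add_left, polar_smul_left, smul_eq_mul] at e
          linear_combination -e
        obtain ⟨-, -, -, k3, k4⟩ := coeff_zero hF hpoly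
        have hne : f ^ 2 * QB b2 ≠ 0 := mul_ne_zero (pow_ne_zero 2 hf) hb.q2
        exact ⟨(mul_eq_zero.1 k3).resolve_left hne, (mul_eq_zero.1 k4).resolve_left hne⟩
      exact ⟨h.nA _ fun y => (key y).1, h.nA _ fun y => (key y).2⟩
    rw [hα, hX.1, hX.2]
    simp

end Cfsg.Agent.H922.Ten
end

-- part: H922/TenFusTwo
section
/-!
Tensor decompositions `V = A ⊗ B`, `dim A = dim B = 3`: fusion, main theorem.
-/

set_option autoImplicit false
set_option linter.unusedSectionVars false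

namespace Cfsg.Agent.H922.Ten

open QuadraticMap Cfsg.Agent.LieClassical.OrthCore Cfsg.Agent.LieClassical.OrthTrans
  Cfsg.Agent.LieClassical.OrthSimple Cfsg.Agent.ClassicalGeometry.OrthAutBasic
  Cfsg.Agent.H887.SiegelMethod

variable {F V A B : Type*} [Field F] [AddCommGroup V] [Module F V] [AddCommGroup A] [Module F A]
  [AddCommGroup B] [Module F B] {Q : QuadraticForm F V} {QA : QuadraticForm F A}
  {QB : QuadraticForm F B} {ten : A →ₗ[F] B →ₗ[F] V}

variable {a1 a2 a3 : A} {b1 b2 b3 : B}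

/-- Transitivity of the decomposable elements on the spaces `A ⊗ b`. -/
theorem exists_dec_map (h : TD Q QA QB ten) {L : Subgroup (V ≃ₗ[F] V)}
    (hL : Ov Q ten L) (hG : Good Q) (hb : HB QB b1 b2 b3) {b' : B} (hb' : QB b' = 0)
    (h0 : b' ≠ 0) : ∃ k ∈ L, Dec ten k ∧ ∀ x, ∃ y, k (ten x b1) = ten y b' := by
  refine hb.sing_induction (P := fun b' => ∃ k ∈ L, Dec ten k ∧ ∀ x, ∃ y, k (ten x b1) = ten y b')
    ⟨1, L.one_mem, dec_one, fun x => ⟨x, rfl⟩⟩ ?_ ?_ b' hb' h0
  · rintro b x w _ ⟨k, hk, hkd, hkb⟩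
    refine ⟨h.tm 1 (T QB x w) * k, L.mul_mem (hL.tB h hG x w) hk, (h.dec_tm _ _).mul hkd,
      fun y => ?_⟩
    obtain ⟨z, hz⟩ := hkb y
    refine ⟨z, ?_⟩
    rw [LinearEquiv.mul_apply, hz, h.tm_ten]
    rfl
  · rintro b c hc ⟨k, hk, hkd, hkb⟩
    refine ⟨k, hk, hkd, fun y => ?_⟩
    obtain ⟨z, hz⟩ := hkb y
    refine ⟨c⁻¹ • z, ?_⟩
    rw [hz, map_smul, map_smul, LinearMap.smul_apply, smul_smul, mul_inv_cancel₀ hc, one_smul]

/-- If `g` maps some `A ⊗ b'` into `A ⊗ b1`, then `g` is decomposable. -/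
theorem dec_of_map [Finite F] [FiniteDimensional F A] (hF : 5 ≤ Nat.card F)
    (h : TD Q QA QB ten) {L : Subgroup (V ≃ₗ[F] V)}
    (hL : Ov Q ten L) (hG : Good Q) (hne : ¬ E Q ≤ L) (ha : HB QA a1 a2 a3)
    (hd : Module.finrank F A = 3) (hb : HB QB b1 b2 b3) {g : V ≃ₗ[F] V}
    (hg : g ∈ L) {b' : B} (h0 : b' ≠ 0) (h1 : ∀ x, ∃ y, g (ten x b') = ten y b1) : Dec ten g := by
  have hgO := hL.leO hg
  have hb' : QB b' = 0 := by
    obtain ⟨y, hy⟩ := h1 a2
    have e : Q (g (ten a2 b')) = 0 := by rw [hy]; exact h.Q_ten_zero _ hb.hyp.left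
    rw [mem_O.1 hgO, h.Q_ten] at e
    exact (mul_eq_zero.1 e).resolve_left (mul_ne_zero h.two ha.q2)
  obtain ⟨k, hk, hkd, hkb⟩ := exists_dec_map h hL hG hb hb' h0
  have hdec : Dec ten (g * k) := by
    refine dec_of_stab hF h hL hG hne ha hd hb (L.mul_mem hg hk) fun x => ?_
    obtain ⟨y, hy⟩ := hkb x
    obtain ⟨z, hz⟩ := h1 y
    exact ⟨z, by rw [LinearEquiv.mul_apply, hy, hz]⟩
  have e : g = g * k * k⁻¹ := by group
  rw [e]
  exact hdec.mul hkd.inv

/-- If `g` maps some `a' ⊗ B` into `A ⊗ b1`, then `g` swaps the factors. -/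
theorem sw_of_map [Finite F] [FiniteDimensional F A] (hF : 5 ≤ Nat.card F)
    (h : TD Q QA QB ten) {L : Subgroup (V ≃ₗ[F] V)}
    (hL : Ov Q ten L) (hG : Good Q) (hne : ¬ E Q ≤ L) (ha : HB QA a1 a2 a3)
    (hd : Module.finrank F A = 3) (hb : HB QB b1 b2 b3) {s0 : V ≃ₗ[F] V} (hs0 : s0 ∈ L)
    (hsw : Sw ten s0) {g : V ≃ₗ[F] V}
    (hg : g ∈ L) {a' : A} (h0 : a' ≠ 0) (h1 : ∀ x, ∃ y, g (ten a' x) = ten y b1) : Sw ten g := by
  obtain ⟨σ, τ, hστ⟩ := hsw
  have hdec : Dec ten (g * s0⁻¹) := by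
    refine dec_of_map hF h hL hG hne ha hd hb (L.mul_mem hg (L.inv_mem hs0)) (b' := τ a')
      (fun h => h0 ((LinearEquiv.map_eq_zero_iff _).1 h)) fun x => ?_
    obtain ⟨z, hz⟩ := h1 (σ.symm x)
    refine ⟨z, ?_⟩
    rw [LinearEquiv.mul_apply, ← hz]
    congr 1
    have e := hστ a' (σ.symm x)
    rw [LinearEquiv.apply_symm_apply] at e
    rw [← e]
    exact LinearEquiv.symm_apply_apply s0 _
  have e : g = g * s0⁻¹ * s0 := by group
  rw [e]
  exact hdec.mul_sw ⟨σ, τ, hστ⟩

theorem TD.nmd (h : TD Q QA QB ten) (hb : HB QB b1 b2 b3) (c : F) (v : V) :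
    nm (h.tm 1 (T QB b1 (c • b2))) (nm (h.tm 1 (T QB b1 (c • b2))) v) =
      ten ((-(c ^ 2 * (2 * QB b2))) • h.pb b1 v) b1 := by
  have hR := RTy_u h hb c
  set d := h.tm 1 (T QB b1 (c • b2)) with hd
  have e1 : ∀ x, nm d (ten x b1) = 0 := by
    intro x
    rw [nm_apply, hR.one, sub_self]
  have e2 : ∀ x, nm d (ten x b2) = ten ((-(c * (2 * QB b2))) • x) b1 := by
    intro x
    rw [nm_apply, hR.two, add_sub_cancel_left]
    rfl
  have e3 : ∀ x, nm d (ten x b3) = ten (c • x) b2 + ten ((-(c ^ 2 * QB b2)) • x) b1 := by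
    intro x
    rw [nm_apply, hR.three, add_assoc, add_sub_cancel_left]
    rfl
  conv_lhs => rw [h.decomp hb v]
  simp only [map_add, e1, e2, e3, map_zero, zero_add, add_zero, smul_smul]
  congr 3
  ring

theorem T_pow_char {p : ℕ} [CharP F p] (u w : B) : (T QB u w) ^ p = 1 := by
  by_cases huw : QB u = 0 ∧ polar QB u w = 0
  · rw [T_pow huw.1 huw.2, ← Nat.cast_smul_eq_nsmul F, CharP.cast_eq_zero, zero_smul,
      T_zero_right]
  · rw [T_eq_one huw, one_pow]

/-- **Fusion.** -/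
theorem fusion [Finite F] [FiniteDimensional F A] [FiniteDimensional F B] (hF : 5 ≤ Nat.card F)
    (h : TD Q QA QB ten) {L : Subgroup (V ≃ₗ[F] V)}
    (hL : Ov Q ten L) (hG : Good Q) (hne : ¬ E Q ≤ L) (ha : HB QA a1 a2 a3)
    (hdA : Module.finrank F A = 3) (hdB : Module.finrank F B = 3) (hb : HB QB b1 b2 b3)
    {s0 : V ≃ₗ[F] V} (hs0 : s0 ∈ L) (hsw : Sw ten s0) {c : F} (hc : c ≠ 0) {g x : V ≃ₗ[F] V}
    (hg : g ∈ L) (hxL : x ∈ L) (hgx : g * x = h.tm 1 (T QB b1 (c • b2)) * g) (hx : DS ten x) :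
    DS ten g := by
  have : Finite A := Module.finite_of_finite F
  have : Finite B := Module.finite_of_finite F
  have : Nontrivial A := Module.nontrivial_of_finrank_pos (R := F) (by omega)
  have : Nontrivial B := Module.nontrivial_of_finrank_pos (R := F) (by omega)
  obtain ⟨p, hp⟩ := CharP.exists F
  have hpp : p.Prime := CharP.char_is_prime F p
  have : Fact p.Prime := ⟨hpp⟩
  have hp2 : p ≠ 2 := by
    rintro rfl
    exact h.two (by exact_mod_cast CharP.cast_eq_zero F 2)
  have hodd : Odd p := hpp.odd_of_ne_two hp2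
  have hδ : (2 * QB b2) ≠ 0 := mul_ne_zero h.two hb.q2
  set d := h.tm 1 (T QB b1 (c • b2)) with hd
  have hdL : d ∈ L := hL.tB h hG b1 _
  -- orders
  have htmpow : ∀ (α : A ≃ₗ[F] A) (β : B ≃ₗ[F] B) (n : ℕ), (h.tm α β) ^ n = h.tm (α ^ n) (β ^ n) := by
    intro α β n
    induction n with
    | zero => rw [pow_zero, pow_zero, pow_zero, h.tm_one]
    | succ n ih => rw [pow_succ, pow_succ, pow_succ, h.tm_mul, ih]
  have hdp : d ^ p = 1 := by
    rw [hd, htmpow, one_pow, T_pow_char, h.tm_one]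
  have hx' : x = g⁻¹ * d * g := by
    rw [mul_assoc, ← hgx]; group
  have hxp : x ^ p = 1 := by
    have : x = g⁻¹ * d * (g⁻¹)⁻¹ := by rw [inv_inv]; exact hx'
    rw [this, conj_pow, hdp]
    group
  have hxd : Dec ten x := hx.dec_of_pow hodd hxp
  have hgO := hL.leO hg
  have hxO := hL.leO hxL
  obtain ⟨α, β, hαO, hβO, hαp, hβp, hxαβ⟩ := dec_unip h hxO hxp hxd
  have hgxv : ∀ v, g (x v) = d (g v) := by
    intro v
    rw [← LinearEquiv.mul_apply, hgx, LinearEquiv.mul_apply]
  have hnm : ∀ v, g (nm x v) = nm d (g v) := by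
    intro v
    rw [nm_apply, nm_apply, map_sub, hgxv]
  have hnm2 : ∀ v, g (nm x (nm x v)) = ten ((-(c ^ 2 * (2 * QB b2))) • h.pb b1 (g v)) b1 := by
    intro v
    rw [hnm, hnm, hd, h.nmd hb]
  have hne0 : (-(c ^ 2 * (2 * QB b2))) ≠ 0 := neg_ne_zero.2 (mul_ne_zero (pow_ne_zero 2 hc) hδ)
  -- some square of `nm x` is not zero
  have hex : ∃ a b, nm x (nm x (ten a b)) ≠ 0 := by
    by_contra hcon
    push Not at hcon
    have h1 : nm x ∘ₗ nm x = 0 := h.ext fun a b => hcon a b
    have h2 := hnm2 (g⁻¹ (ten a2 b3))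
    have h3 : nm x (nm x (g⁻¹ (ten a2 b3))) = 0 := LinearMap.congr_fun h1 _
    have h4 : g (g⁻¹ (ten a2 b3)) = ten a2 b3 := LinearEquiv.apply_symm_apply g _
    rw [h3, map_zero, h4, h.pb_ten, hb.p13, one_smul] at h2
    have h5 : ten 0 b1 = ten ((-(c ^ 2 * (2 * QB b2))) • a2) b1 := by
      rw [map_zero]
      exact h2
    have h6 := h.ten_inj hb.hyp.left_ne h5
    have h7 := (smul_eq_zero.1 h6.symm).resolve_left hne0
    apply ha.q2
    rw [h7]
    exact QuadraticMap.map_zero QA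
  by_cases hα1 : α = 1
  · -- `x = 1 ⊗ β`
    left
    have e1 : ∀ a b, nm x (ten a b) = ten a (β b - b) := by
      intro a b
      rw [nm_apply, hxαβ, hα1, map_sub]
      rfl
    obtain ⟨a, b, hab⟩ := hex
    rw [e1, e1] at hab
    set b' := β (β b - b) - (β b - b) with hb'
    have hb'0 : b' ≠ 0 := by
      rintro h0
      rw [h0, map_zero] at hab
      exact hab rfl
    refine dec_of_map hF h hL hG hne ha hdA hb hg hb'0 fun y => ?_
    have := hnm2 (ten y b)
    rw [e1, e1] at this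
    exact ⟨_, this⟩
  by_cases hβ1 : β = 1
  · -- `x = α ⊗ 1`
    right
    have e1 : ∀ a b, nm x (ten a b) = ten (α a - a) b := by
      intro a b
      rw [nm_apply, hxαβ, hβ1, map_sub, LinearMap.sub_apply]
      rfl
    obtain ⟨a, b, hab⟩ := hex
    rw [e1, e1] at hab
    set a' := α (α a - a) - (α a - a) with ha'
    have ha'0 : a' ≠ 0 := by
      rintro h0
      rw [h0, map_zero] at hab
      exact hab rfl
    refine sw_of_map hF h hL hG hne ha hdA hb hs0 hsw hg ha'0 fun y => ?_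
    have := hnm2 (ten a y)
    rw [e1, e1] at this
    exact ⟨_, this⟩
  -- both factors are not trivial: contradiction
  exfalso
  obtain ⟨a', ha'0, ha'Q, ha'f⟩ := exists_fix_sing h.two hαO hαp hα1
  obtain ⟨b', hb'0, hb'Q, hb'f⟩ := exists_fix_sing h.two hβO hβp hβ1
  obtain ⟨w, a'', ha'⟩ := exists_HB h.two h.nA hdA ha'Q ha'0
  obtain ⟨w', b'', hb'⟩ := exists_HB h.two h.nB hdB hb'Q hb'0
  obtain ⟨s, hs⟩ := unip_eq_T h.two ha' hαO hαp ha'f
  obtain ⟨t, ht⟩ := unip_eq_T h.two hb' hβO hβp hb'f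
  have hs0 : s ≠ 0 := by
    rintro rfl
    rw [zero_smul, T_zero_right] at hs
    exact hα1 hs
  have ht0 : t ≠ 0 := by
    rintro rfl
    rw [zero_smul, T_zero_right] at ht
    exact hβ1 ht
  set y1 : F → (V ≃ₗ[F] V) := fun r => h.tm (T QA a' (r • w)) 1 with hy1
  set y2 : F → (V ≃ₗ[F] V) := fun r => h.tm 1 (T QB b' (r • w')) with hy2
  have hy1L : ∀ r, y1 r ∈ L := fun r => hL.tA h hG _ _
  have hy2L : ∀ r, y2 r ∈ L := fun r => hL.tB h hG _ _
  have hy12 : ∀ r r', y1 r * y2 r' = y2 r' * y1 r := by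
    intro r r'
    show h.tm (T QA a' (r • w)) 1 * h.tm 1 (T QB b' (r' • w')) =
      h.tm 1 (T QB b' (r' • w')) * h.tm (T QA a' (r • w)) 1
    rw [← h.tm_mul, ← h.tm_mul, mul_one, one_mul, mul_one, one_mul]
  have hperpA : ∀ r : F, polar QA a' (r • w) = 0 := fun r => by
    rw [polar_smul_right, ha'.p12, smul_zero]
  have hperpB : ∀ r : F, polar QB b' (r • w') = 0 := fun r => by
    rw [polar_smul_right, hb'.p12, smul_zero]
  have hy1add : ∀ r r', y1 (r + r') = y1 r * y1 r' := by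
    intro r r'
    show h.tm (T QA a' ((r + r') • w)) 1 = h.tm (T QA a' (r • w)) 1 * h.tm (T QA a' (r' • w)) 1
    rw [← h.tm_mul, one_mul, T_mul ha'Q (hperpA r) (hperpA r'), add_smul]
  have hy2add : ∀ r r', y2 (r + r') = y2 r * y2 r' := by
    intro r r'
    show h.tm 1 (T QB b' ((r + r') • w')) = h.tm 1 (T QB b' (r • w')) * h.tm 1 (T QB b' (r' • w'))
    rw [← h.tm_mul, one_mul, T_mul hb'Q (hperpB r) (hperpB r'), add_smul]
  have hy1p : ∀ r, y1 r ^ p = 1 := by
    intro r
    show (h.tm (T QA a' (r • w)) 1) ^ p = 1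
    rw [htmpow, one_pow, T_pow_char, h.tm_one]
  have hy2p : ∀ r, y2 r ^ p = 1 := by
    intro r
    show (h.tm 1 (T QB b' (r • w'))) ^ p = 1
    rw [htmpow, one_pow, T_pow_char, h.tm_one]
  have hxy : x = y1 s * y2 t := by
    refine h.ext_equiv fun a b => ?_
    show x (ten a b) = (h.tm (T QA a' (s • w)) 1 * h.tm 1 (T QB b' (t • w'))) (ten a b)
    rw [hxαβ, ← h.tm_mul, mul_one, one_mul, h.tm_ten, ← hs, ← ht]
  have hy1x : ∀ r, y1 r * x = x * y1 r := by
    intro r
    rw [hxy, ← mul_assoc, ← hy1add, add_comm, hy1add, mul_assoc, hy12, mul_assoc]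
  have hy2x : ∀ r, y2 r * x = x * y2 r := by
    intro r
    rw [hxy, ← mul_assoc, ← hy12, mul_assoc, ← hy2add, add_comm, hy2add, mul_assoc]
  -- normal form of `g y g⁻¹` for `y` commuting with `x`
  have key : ∀ y ∈ L, y ^ p = 1 → y * x = x * y → ∃ (α : A ≃ₗ[F] A) (φ : F), α ^ p = 1 ∧
      ∀ a b, (g * y * g⁻¹) (ten a b) = ten (α a) (T QB b1 (φ • b2) b) := by
    intro y hy hyp hyx
    set z := g * y * g⁻¹ with hz
    have hzL : z ∈ L := L.mul_mem (L.mul_mem hg hy) (L.inv_mem hg)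
    have hzp : z ^ p = 1 := by
      rw [hz, conj_pow, hyp]
      group
    have hzd : z * d = d * z := by
      have e : d = g * x * g⁻¹ := by rw [hgx]; group
      rw [hz, e]
      calc g * y * g⁻¹ * (g * x * g⁻¹) = g * (y * x) * g⁻¹ := by group
        _ = g * (x * y) * g⁻¹ := by rw [hyx]
        _ = g * x * g⁻¹ * (g * y * g⁻¹) := by group
    have hznm : ∀ v, z (nm d v) = nm d (z v) := by
      intro v
      have : z (d v) = d (z v) := by
        rw [← LinearEquiv.mul_apply, hzd, LinearEquiv.mul_apply]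
      rw [nm_apply, nm_apply, map_sub, this]
    have hzst : ∀ a, ∃ y, z (ten a b1) = ten y b1 := by
      intro a
      have e1 : ten a b1 = (-(c ^ 2 * (2 * QB b2)))⁻¹ • nm d (nm d (ten a b3)) := by
        rw [hd, h.nmd hb, h.pb_ten, hb.p13, one_smul, map_smul, LinearMap.smul_apply, smul_smul,
          inv_mul_cancel₀ hne0, one_smul]
      rw [e1, map_smul, hznm, hznm, hd, h.nmd hb]
      exact ⟨(-(c ^ 2 * (2 * QB b2)))⁻¹ • ((-(c ^ 2 * (2 * QB b2))) • h.pb b1 (z (ten a b3))),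
        by simp only [map_smul, LinearMap.smul_apply]⟩
    have hzdec : Dec ten z := dec_of_stab hF h hL hG hne ha hdA hb hzL hzst
    obtain ⟨α', β', hα'O, hβ'O, hα'p, hβ'p, hzαβ⟩ := dec_unip h (hL.leO hzL) hzp hzdec
    -- `β' b1 = b1`
    obtain ⟨y', hy'⟩ := hzst a2
    rw [hzαβ] at hy'
    have hα'a2 : α' a2 ≠ 0 := by
      intro h0
      have := (LinearEquiv.map_eq_zero_iff α').1 h0
      apply ha.q2
      rw [this]
      exact QuadraticMap.map_zero QA
    obtain ⟨v', hv'⟩ := h.nA.exists_polar_eq hα'a2 1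
    have e5 : β' b1 = polar QA v' y' • b1 := by
      have e6 := congrArg (h.flip.pb v') hy'
      have e7 : h.flip.pb v' (ten (α' a2) (β' b1)) = polar QA v' (α' a2) • β' b1 :=
        h.flip.pb_ten v' (β' b1) (α' a2)
      have e8 : h.flip.pb v' (ten y' b1) = polar QA v' y' • b1 := h.flip.pb_ten v' b1 y'
      rw [e7, e8, polar_comm, hv', one_smul] at e6
      exact e6
    have e9 := fix_of_eigen hβ'p hb.hyp.left_ne e5
    obtain ⟨φ, hφ⟩ := unip_eq_T h.two hb hβ'O hβ'p e9
    exact ⟨α', φ, hα'p, fun a b => by rw [hzαβ, hφ]⟩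
  choose α1 φ1 hα1p hz1 using fun r => key (y1 r) (hy1L r) (hy1p r) (hy1x r)
  choose α2 φ2 hα2p hz2 using fun r => key (y2 r) (hy2L r) (hy2p r) (hy2x r)
  -- additivity
  have hmul : ∀ {y y' : V ≃ₗ[F] V} {α α' α'' : A ≃ₗ[F] A} {φ φ' φ'' : F},
      (∀ a b, (g * y * g⁻¹) (ten a b) = ten (α a) (T QB b1 (φ • b2) b)) →
      (∀ a b, (g * y' * g⁻¹) (ten a b) = ten (α' a) (T QB b1 (φ' • b2) b)) →
      (∀ a b, (g * (y * y') * g⁻¹) (ten a b) = ten (α'' a) (T QB b1 (φ'' • b2) b)) →
      α'' = α * α' ∧ φ'' = φ + φ' := by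
    intro y y' α α' α'' φ φ' φ'' h1 h2 h3
    have h4 : ∀ a b, ten (α'' a) (T QB b1 (φ'' • b2) b) =
        ten (α (α' a)) (T QB b1 ((φ + φ') • b2) b) := by
      intro a b
      rw [← h3]
      have e : g * (y * y') * g⁻¹ = (g * y * g⁻¹) * (g * y' * g⁻¹) := by group
      rw [e, LinearEquiv.mul_apply, h2, h1, add_smul, ← T_mul hb.hyp.left
        (by rw [polar_smul_right, hb.p12, smul_zero]) (by rw [polar_smul_right, hb.p12, smul_zero])]
      rfl
    have h5 : ∀ a, α'' a = α (α' a) := by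
      intro a
      have := h4 a b1
      rw [T_HB_one hb, T_HB_one hb] at this
      exact h.ten_inj hb.hyp.left_ne this
    refine ⟨by ext a; exact h5 a, ?_⟩
    have h6 := h4 ((α'' : A ≃ₗ[F] A).symm a2) b2
    rw [← h5, LinearEquiv.apply_symm_apply, T_HB_two hb, T_HB_two hb] at h6
    have ha20 : a2 ≠ 0 := by
      intro h0
      apply ha.q2
      rw [h0]
      exact QuadraticMap.map_zero QA
    have h7 := h.flip.ten_inj ha20 (x := b2 - (φ'' * (2 * QB b2)) • b1)
      (y := b2 - ((φ + φ') * (2 * QB b2)) • b1) h6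
    have h8 := sub_right_injective h7
    have h9 := smul_left_injective F hb.hyp.left_ne h8
    exact mul_right_cancel₀ hδ h9
  have hα1add : ∀ r r', α1 (r + r') = α1 r * α1 r' ∧ φ1 (r + r') = φ1 r + φ1 r' := by
    intro r r'
    refine hmul (hz1 r) (hz1 r') ?_
    rw [← hy1add]
    exact hz1 (r + r')
  have hα2add : ∀ r r', α2 (r + r') = α2 r * α2 r' ∧ φ2 (r + r') = φ2 r + φ2 r' := by
    intro r r'
    refine hmul (hz2 r) (hz2 r') ?_
    rw [← hy2add]
    exact hz2 (r + r')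
  -- polynomial form
  have hconj : ∀ {y : V ≃ₗ[F] V} {X X2 : V →ₗ[F] V} {r : F},
      (∀ v, y v = v + r • X v + r ^ 2 • X2 v) → ∀ v, (g * y * g⁻¹) v = v +
        r • (g.toLinearMap ∘ₗ X ∘ₗ (g⁻¹ : V ≃ₗ[F] V).toLinearMap) v +
        r ^ 2 • (g.toLinearMap ∘ₗ X2 ∘ₗ (g⁻¹ : V ≃ₗ[F] V).toLinearMap) v := by
    intro y X X2 r hy v
    have e : g (g⁻¹ v) = v := LinearEquiv.apply_symm_apply g v
    show g (y (g⁻¹ v)) = _
    rw [hy, map_add, map_add, map_smul, map_smul, e]
    rfl
  obtain ⟨f1, hf1, hf1'⟩ := lin_or hF h hb (z := fun r => g * y1 r * g⁻¹) (α := α1) (φ := φ1)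
    (fun r v => hconj (fun v => h.tmA_poly ha' r v) v) hz1 (fun r r' => (hα1add r r').1)
    (fun r r' => (hα1add r r').2) hα1p
  obtain ⟨f2, hf2, hf2'⟩ := lin_or hF h hb (z := fun r => g * y2 r * g⁻¹) (α := α2) (φ := φ2)
    (fun r v => hconj (fun v => h.tmB_poly hb' r v) v) hz2 (fun r r' => (hα2add r r').1)
    (fun r r' => (hα2add r r').2) hα2p
  -- `d`
  have hdz : ∀ a b, (g * (y1 s * y2 t) * g⁻¹) (ten a b) =
      ten ((1 : A ≃ₗ[F] A) a) (T QB b1 (c • b2) b) := by
    intro a b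
    rw [← hxy]
    have : g * x * g⁻¹ = d := by rw [hgx]; group
    rw [this, hd, h.tm_ten]
  obtain ⟨hαeq, hφeq⟩ := hmul (hz1 s) (hz2 t) hdz
  rw [hf1, hf2] at hφeq
  -- an element `g y g⁻¹` with trivial data is trivial
  have htriv : ∀ {y : V ≃ₗ[F] V} {α : A ≃ₗ[F] A} {φ : F},
      (∀ a b, (g * y * g⁻¹) (ten a b) = ten (α a) (T QB b1 (φ • b2) b)) → α = 1 → φ = 0 →
      y = 1 := by
    intro y α φ h1 hα hφ
    have : g * y * g⁻¹ = 1 := by
      refine h.ext_equiv fun a b => ?_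
      rw [h1, hα, hφ, zero_smul, T_zero_right]
      rfl
    have e : y = g⁻¹ * (g * y * g⁻¹) * g := by group
    rw [e, this]
    group
  have hy1ne : ∀ r, y1 r = 1 → r = 0 := by
    intro r hr
    have e : h.tm (T QA a' (r • w)) 1 (ten w b1) = ten w b1 := by
      have := DFunLike.congr_fun hr (ten w b1)
      exact this
    rw [h.tm_ten] at e
    have e2 := h.ten_inj hb.hyp.left_ne (x := T QA a' (r • w) w) (y := w) e
    rw [T_HB_two ha', sub_eq_self] at e2
    have e3 := (smul_eq_zero.1 e2).resolve_right ha'.hyp.left_ne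
    exact (mul_eq_zero.1 e3).resolve_right (mul_ne_zero h.two ha'.q2)
  have hy2ne : ∀ r, y2 r = 1 → r = 0 := by
    intro r hr
    have e : h.tm 1 (T QB b' (r • w')) (ten a' w') = ten a' w' := by
      have := DFunLike.congr_fun hr (ten a' w')
      exact this
    rw [h.tm_ten] at e
    have e2 := h.flip.ten_inj ha'.hyp.left_ne (x := T QB b' (r • w') w') (y := w') e
    rw [T_HB_two hb', sub_eq_self] at e2
    have e3 := (smul_eq_zero.1 e2).resolve_right hb'.hyp.left_ne
    exact (mul_eq_zero.1 e3).resolve_right (mul_ne_zero h.two hb'.q2)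
  by_cases h10 : f1 = 0
  · by_cases h20 : f2 = 0
    · rw [h10, h20, zero_mul, zero_mul, add_zero] at hφeq
      exact hc hφeq
    · have hα2 := hf2' h20 t
      rw [hα2, mul_one] at hαeq
      have := htriv (hz1 s) hαeq.symm (by rw [hf1, h10, zero_mul])
      exact hs0 (hy1ne s this)
  · by_cases h20 : f2 = 0
    · have hα1' := hf1' h10 s
      rw [hα1', one_mul] at hαeq
      have := htriv (hz2 t) hαeq.symm (by rw [hf2, h20, zero_mul])
      exact ht0 (hy2ne t this)
    · -- both non-zero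
      have h3 : y1 f2 * y2 (-f1) = 1 := by
        refine htriv (α := 1) (φ := 0) ?_ rfl rfl
        intro a b
        have e : g * (y1 f2 * y2 (-f1)) * g⁻¹ = (g * y1 f2 * g⁻¹) * (g * y2 (-f1) * g⁻¹) := by
          group
        rw [e, LinearEquiv.mul_apply, hz2, hz1, hf1' h10, hf2' h20, hf1, hf2]
        have e2 : T QB b1 ((f1 * f2) • b2) (T QB b1 ((f2 * -f1) • b2) b) = b := by
          rw [← LinearEquiv.mul_apply, T_mul hb.hyp.left
            (by rw [polar_smul_right, hb.p12, smul_zero])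
            (by rw [polar_smul_right, hb.p12, smul_zero]), ← add_smul]
          have : f1 * f2 + f2 * -f1 = 0 := by ring
          rw [this, zero_smul, T_zero_right]
          rfl
        rw [e2, zero_smul, T_zero_right]
        rfl
      have h4 : ∀ a b, ten (T QA a' (f2 • w) a) (T QB b' ((-f1) • w') b) = ten a b := by
        intro a b
        have e : (h.tm (T QA a' (f2 • w)) 1 * h.tm 1 (T QB b' ((-f1) • w'))) (ten a b) = ten a b :=
          DFunLike.congr_fun h3 (ten a b)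
        rw [← h.tm_mul, mul_one, one_mul, h.tm_ten] at e
        exact e
      have h5 := h4 a' w'
      rw [T_HB_one ha'] at h5
      have e2 := h.flip.ten_inj ha'.hyp.left_ne (x := T QB b' ((-f1) • w') w') (y := w') h5
      rw [T_HB_two hb', sub_eq_self] at e2
      have e3 := (smul_eq_zero.1 e2).resolve_right hb'.hyp.left_ne
      have e4 := (mul_eq_zero.1 e3).resolve_right (mul_ne_zero h.two hb'.q2)
      exact h10 (neg_eq_zero.1 e4)

end Cfsg.Agent.H922.Ten
end

-- part: H922/TenTrace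
section
/-!
A relative trace argument (Green correspondence, elementary form).
`G` a finite group, `H ≤ G`, `ρ` a representation of `G` on `X`, `π` an `H`-equivariant
endomorphism of `X`, `tr = Σ_{g ∈ G/H} g π g⁻¹`. If a group `D` acts freely on `G/H - {H}` and fixes
`x`, then `tr x = π x + Σ_{d ∈ D} d y` for some `y`.
-/

set_option autoImplicit false
set_option linter.unusedSectionVars false

namespace Cfsg.Agent.H922.Trace

/-- Sums over free orbits. -/
theorem sum_free {D C X : Type*} [Group D] [Fintype D] [DecidableEq C] [AddCommGroup X]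
    (act : D →* Equiv.Perm C) (ρ : D → (X →+ X)) (f : C → X)
    (hf : ∀ d c, f (act d c) = ρ d (f c)) (n : ℕ) :
    ∀ S : Finset C, S.card = n → (∀ d, ∀ c ∈ S, act d c ∈ S) → (∀ d, ∀ c ∈ S, act d c = c → d = 1) →
      ∃ y, ∑ c ∈ S, f c = ∑ d, ρ d y := by
  induction n using Nat.strong_induction_on with
  | _ n ih =>
    intro S hS hinv hfree
    by_cases hne : S.Nonempty
    · obtain ⟨c0, hc0⟩ := hne
      let T : Finset C := Finset.univ.image fun d : D => act d c0
      have hTS : T ⊆ S := by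
        intro c hc
        obtain ⟨d, -, rfl⟩ := Finset.mem_image.1 hc
        exact hinv d c0 hc0
      have hinj : Function.Injective fun d : D => act d c0 := by
        intro d d' hdd
        have h1 : act (d'⁻¹ * d) c0 = c0 := by
          have hdd' : act d c0 = act d' c0 := hdd
          rw [map_mul, Equiv.Perm.mul_apply, hdd', map_inv]
          exact Equiv.symm_apply_apply (act d') c0
        have h2 := hfree _ c0 hc0 h1
        exact (inv_mul_eq_one.1 h2).symm
      have hT1 : c0 ∈ T := Finset.mem_image.2 ⟨1, Finset.mem_univ _, by rw [map_one]; rfl⟩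
      have hcard : (S \ T).card < n := by
        rw [← hS]
        apply Finset.card_lt_card
        refine Finset.ssubset_iff_subset_ne.2 ⟨Finset.sdiff_subset, fun h => ?_⟩
        rw [← h] at hc0
        exact (Finset.mem_sdiff.1 hc0).2 hT1
      obtain ⟨y, hy⟩ := ih _ hcard (S \ T) rfl
        (fun d c hc => by
          obtain ⟨hc1, hc2⟩ := Finset.mem_sdiff.1 hc
          refine Finset.mem_sdiff.2 ⟨hinv d c hc1, fun hT => hc2 ?_⟩
          obtain ⟨d', -, hd'⟩ := Finset.mem_image.1 hT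
          refine Finset.mem_image.2 ⟨d⁻¹ * d', Finset.mem_univ _, ?_⟩
          rw [map_mul, Equiv.Perm.mul_apply]
          have hd'' : act d' c0 = act d c := hd'
          rw [hd'', map_inv]
          exact Equiv.symm_apply_apply (act d) c)
        (fun d c hc => hfree d c (Finset.mem_sdiff.1 hc).1)
      refine ⟨f c0 + y, ?_⟩
      rw [← Finset.sum_sdiff hTS, hy, Finset.sum_image (fun d _ d' _ h => hinj h)]
      simp only [hf, map_add, Finset.sum_add_distrib]
      rw [add_comm]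
    · rw [Finset.not_nonempty_iff_eq_empty] at hne
      refine ⟨0, ?_⟩
      rw [hne]
      simp

variable {F G X : Type*} [Field F] [Group G] [Finite G] [AddCommGroup X] [Module F X]
  (ρ : G →* Module.End F X) (H : Subgroup G) (π : Module.End F X)

/-- The relative trace. -/
noncomputable def tr : Module.End F X :=
  letI := Fintype.ofFinite (G ⧸ H)
  ∑ c : G ⧸ H, ρ c.out * π * ρ c.out⁻¹

variable {ρ H π}

theorem term_eq (hπ : ∀ h ∈ H, ρ h * π = π * ρ h) (g : G) {h : G} (hh : h ∈ H) :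
    ρ (g * h) * π * ρ (g * h)⁻¹ = ρ g * π * ρ g⁻¹ := by
  rw [mul_inv_rev, map_mul, map_mul]
  have : ρ h * π * ρ h⁻¹ = π := by
    rw [hπ h hh, mul_assoc, ← map_mul, mul_inv_cancel, map_one, mul_one]
  calc ρ g * ρ h * π * (ρ h⁻¹ * ρ g⁻¹) = ρ g * (ρ h * π * ρ h⁻¹) * ρ g⁻¹ := by
        simp only [mul_assoc]
    _ = ρ g * π * ρ g⁻¹ := by rw [this]

theorem term_smul (hπ : ∀ h ∈ H, ρ h * π = π * ρ h) (g : G) (c : G ⧸ H) :
    ρ (g • c).out * π * ρ (g • c).out⁻¹ = ρ g * (ρ c.out * π * ρ c.out⁻¹) * ρ g⁻¹ := by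
  have h1 : ((g • c).out : G ⧸ H) = ((g * c.out : G) : G ⧸ H) := by
    rw [QuotientGroup.out_eq']
    conv_lhs => rw [← QuotientGroup.out_eq' c]
    rfl
  have h2 : (g * c.out)⁻¹ * (g • c).out ∈ H := QuotientGroup.eq.1 h1.symm
  have h3 : (g • c).out = (g * c.out) * ((g * c.out)⁻¹ * (g • c).out) := by group
  rw [h3, term_eq hπ _ h2, mul_inv_rev, map_mul, map_mul]
  simp only [mul_assoc]

theorem tr_comm (hπ : ∀ h ∈ H, ρ h * π = π * ρ h) (g : G) : ρ g * tr ρ H π = tr ρ H π * ρ g := by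
  letI := Fintype.ofFinite (G ⧸ H)
  have h1 : ρ g * tr ρ H π * ρ g⁻¹ = tr ρ H π := by
    unfold tr
    rw [Finset.mul_sum, Finset.sum_mul]
    refine Fintype.sum_equiv (MulAction.toPerm g) _ _ fun c => ?_
    exact (term_smul hπ g c).symm
  calc ρ g * tr ρ H π = ρ g * tr ρ H π * (ρ g⁻¹ * ρ g) := by
        rw [← map_mul, inv_mul_cancel, map_one, mul_one]
    _ = tr ρ H π * ρ g := by rw [← mul_assoc, h1]

theorem tr_apply (hπ : ∀ h ∈ H, ρ h * π = π * ρ h) {D : Type*} [Group D] [Fintype D] (j : D →* G)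
    (hD : ∀ d, j d ∈ H) (hfree : ∀ d, d ≠ 1 → ∀ g, g⁻¹ * j d * g ∈ H → g ∈ H) {x : X} (hx : ∀ d, ρ (j d) x = x) :
    ∃ y, tr ρ H π x = π x + ∑ d, ρ (j d) y := by
  classical
  letI := Fintype.ofFinite (G ⧸ H)
  let act : D →* Equiv.Perm (G ⧸ H) := (MulAction.toPermHom G (G ⧸ H)).comp j
  have hact : ∀ d c, act d c = j d • c := fun d c => rfl
  let f : G ⧸ H → X := fun c => (ρ c.out * π * ρ c.out⁻¹) x
  have hf : ∀ d c, f (act d c) = (ρ (j d)).toAddMonoidHom (f c) := by
    intro d c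
    have h1 : ρ (j d)⁻¹ x = x := by
      have := congrArg (ρ (j d)⁻¹) (hx d)
      rw [← Module.End.mul_apply, ← map_mul, inv_mul_cancel, map_one] at this
      exact this.symm
    show (ρ (j d • c).out * π * ρ (j d • c).out⁻¹) x = ρ (j d) ((ρ c.out * π * ρ c.out⁻¹) x)
    rw [term_smul hπ]
    simp only [Module.End.mul_apply]
    rw [h1]
  have h1H : ((1 : G) : G ⧸ H).out ∈ H := by
    have : (((1 : G) : G ⧸ H).out : G ⧸ H) = ((1 : G) : G ⧸ H) := QuotientGroup.out_eq' _
    have h2 := QuotientGroup.eq.1 this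
    rw [mul_one] at h2
    exact (H.inv_mem_iff).1 h2
  have hf1 : f ((1 : G) : G ⧸ H) = π x := by
    have h3 := term_eq hπ (1 : G) h1H
    rw [one_mul, map_one, inv_one, map_one, one_mul, mul_one] at h3
    show (ρ ((1 : G) : G ⧸ H).out * π * ρ ((1 : G) : G ⧸ H).out⁻¹) x = π x
    rw [h3]
  obtain ⟨y, hy⟩ := sum_free act (fun d => (ρ (j d)).toAddMonoidHom) f hf _
    (Finset.univ.erase ((1 : G) : G ⧸ H)) rfl (by
      intro d c hc
      rw [Finset.mem_erase] at hc ⊢
      refine ⟨fun h => hc.1 ?_, Finset.mem_univ _⟩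
      have h2 : c = (j d)⁻¹ • ((1 : G) : G ⧸ H) := by
        rw [← h, hact, inv_smul_smul]
      rw [h2]
      exact QuotientGroup.eq.2 (by simpa using hD d)) (by
      intro d c hc h
      by_contra hd
      rw [Finset.mem_erase] at hc
      obtain ⟨g, rfl⟩ := QuotientGroup.mk_surjective c
      have h2 : ((j d * g : G) : G ⧸ H) = (g : G ⧸ H) := h
      have h3 := QuotientGroup.eq.1 h2.symm
      have h4 := hfree d hd g (by rw [mul_assoc]; exact h3)
      apply hc.1
      exact QuotientGroup.eq.2 (by rw [mul_one]; exact H.inv_mem h4))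
  refine ⟨y, ?_⟩
  have h2 : tr ρ H π x = ∑ c : G ⧸ H, f c := by
    unfold tr
    rw [LinearMap.sum_apply]
  rw [h2, ← Finset.add_sum_erase _ _ (Finset.mem_univ ((1 : G) : G ⧸ H)), hf1, hy]
  rfl

/-- A `p`-group acting on a non-zero finite module in characteristic `p` has non-zero fixed
points. -/
theorem exists_fix {D : Type*} [Group D] {p : ℕ} [Fact p.Prime] [CharP F p] (hD : IsPGroup p D)
    [Finite X] (σ : D →* Module.End F X) (K : Submodule F X) (hK : ∀ d, ∀ x ∈ K, σ d x ∈ K)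
    (hne : ∃ x ∈ K, x ≠ 0) : ∃ x ∈ K, x ≠ 0 ∧ ∀ d, σ d x = x := by
  letI : MulAction D K :=
    { smul := fun d x => ⟨σ d x, hK d x x.2⟩
      one_smul := fun x => Subtype.ext (by
        show σ 1 (x : X) = x
        rw [map_one]
        rfl)
      mul_smul := fun d d' x => Subtype.ext (by
        show σ (d * d') (x : X) = σ d (σ d' x)
        rw [map_mul]
        rfl) }
  have hsmul : ∀ (d : D) (x : K), ((d • x : K) : X) = σ d x := fun d x => rfl
  obtain ⟨x0, hx0, hx00⟩ := hne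
  have hpK : p ∣ Nat.card K := by
    have hne0 : (⟨x0, hx0⟩ : K) ≠ 0 := fun h => hx00 (congrArg Subtype.val h)
    have hp1 : p • (⟨x0, hx0⟩ : K) = 0 := by
      rw [← Nat.cast_smul_eq_nsmul F, CharP.cast_eq_zero, zero_smul]
    have hord : addOrderOf (⟨x0, hx0⟩ : K) = p := addOrderOf_eq_prime hp1 hne0
    rw [← hord]
    exact addOrderOf_dvd_natCard _
  have h0 : (0 : K) ∈ MulAction.fixedPoints D K := by
    intro d
    apply Subtype.ext
    rw [hsmul]
    exact map_zero _
  obtain ⟨x, hx, hne⟩ := hD.exists_fixed_point_of_prime_dvd_card_of_fixed_point K hpK h0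
  refine ⟨x, x.2, fun h => hne (Subtype.ext h.symm), fun d => ?_⟩
  have := congrArg Subtype.val (hx d)
  rwa [hsmul] at this

theorem tr_mem (K0 : Submodule F X) (hK0 : ∀ g, ∀ x ∈ K0, ρ g x ∈ K0)
    (hK0π : ∀ x ∈ K0, π x ∈ K0) {x : X} (hx : x ∈ K0) : tr ρ H π x ∈ K0 := by
  letI := Fintype.ofFinite (G ⧸ H)
  unfold tr
  rw [LinearMap.sum_apply]
  refine K0.sum_mem fun c _ => ?_
  exact hK0 _ _ (hK0π _ (hK0 _ _ hx))

/-- **The Green correspondence argument.** -/
theorem green (hπ : ∀ h ∈ H, ρ h * π = π * ρ h)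
    {D : Type*} [Group D] {p : ℕ} [Fact p.Prime] [CharP F p] (hD : IsPGroup p D) [Finite X]
    (j : D →* G) (hDH : ∀ d, j d ∈ H) (P : X → Prop) (hP : ∀ x, (∀ d, ρ (j d) x = x) → P x)
    (K0 : Submodule F X) (hK0 : ∀ g, ∀ x ∈ K0, ρ g x ∈ K0)
    (hK0π : ∀ x ∈ K0, π x ∈ K0) (hππ : ∀ x ∈ K0, π (π x) = π x)
    (hfix : ∀ x ∈ K0, P x → tr ρ H π x = π x) (hX0 : ∀ x ∈ K0, π x = x → tr ρ H π x = x) (g : G)
    {x : X} (hxK : x ∈ K0) (hx : π x = x) : π (ρ g x) = ρ g x := by
  set τ := tr ρ H π with hτ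
  by_contra hne
  set z := ρ g x with hz
  have hzK0 : z ∈ K0 := hK0 g x hxK
  have hτz : τ z = z := by
    have h1 := LinearMap.congr_fun (tr_comm hπ g) x
    rw [Module.End.mul_apply, Module.End.mul_apply, ← hτ, hX0 x hxK hx] at h1
    exact h1.symm
  let K : Submodule F X :=
    { carrier := {y | y ∈ K0 ∧ τ y = y ∧ π y = 0}
      zero_mem' := ⟨K0.zero_mem, map_zero _, map_zero _⟩
      add_mem' := by
        rintro y y' ⟨h0, h1, h2⟩ ⟨h0', h1', h2'⟩
        exact ⟨K0.add_mem h0 h0', by rw [map_add, h1, h1'], by rw [map_add, h2, h2', add_zero]⟩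
      smul_mem' := by
        rintro c y ⟨h0, h1, h2⟩
        exact ⟨K0.smul_mem c h0, by rw [map_smul, h1], by rw [map_smul, h2, smul_zero]⟩ }
  have hKinv : ∀ d, ∀ y ∈ K, (ρ.comp j) d y ∈ K := by
    rintro d y ⟨h0, h1, h2⟩
    refine ⟨hK0 _ _ h0, ?_, ?_⟩
    · have h3 := LinearMap.congr_fun (tr_comm hπ (j d)) y
      rw [Module.End.mul_apply, Module.End.mul_apply, ← hτ, h1] at h3
      exact h3.symm
    · have h3 := LinearMap.congr_fun (hπ (j d) (hDH d)) y
      rw [Module.End.mul_apply, Module.End.mul_apply, h2, map_zero] at h3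
      exact h3.symm
  have hmem : z - π z ∈ K := by
    refine ⟨K0.sub_mem hzK0 (hK0π z hzK0), ?_, ?_⟩
    · rw [map_sub, hτz, hX0 _ (hK0π z hzK0) (hππ z hzK0)]
    · rw [map_sub, hππ z hzK0, sub_self]
  obtain ⟨y, hyK, hy0, hyD⟩ := exists_fix hD (ρ.comp j) K hKinv
    ⟨z - π z, hmem, fun h => hne (sub_eq_zero.1 h).symm⟩
  have h1 := hfix y hyK.1 (hP y hyD)
  rw [hyK.2.1, hyK.2.2] at h1
  exact hy0 h1

end Cfsg.Agent.H922.Trace
end

-- part: H922/TenForms
section
/-!
Bilinear forms on `V = A ⊗ B`: partial transpositions, the projection onto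
`Λ²(A)* ⊗ Λ²(B)*`, pure tensors.
-/

set_option autoImplicit false
set_option linter.unusedSectionVars false

namespace Cfsg.Agent.H922.Ten

open QuadraticMap Cfsg.Agent.LieClassical.OrthCore Cfsg.Agent.LieClassical.OrthTrans
  Cfsg.Agent.LieClassical.OrthSimple Cfsg.Agent.ClassicalGeometry.OrthAutBasic
  Cfsg.Agent.H887.SiegelMethod

variable {F V A B : Type*} [Field F] [AddCommGroup V] [Module F V] [AddCommGroup A] [Module F A]
  [AddCommGroup B] [Module F B] {Q : QuadraticForm F V} {QA : QuadraticForm F A}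
  {QB : QuadraticForm F B} {ten : A →ₗ[F] B →ₗ[F] V}

variable {a1 a2 a3 : A} {b1 b2 b3 : B}

/-- The action on bilinear forms. -/
def rho (F V : Type*) [Field F] [AddCommGroup V] [Module F V] :
    (V ≃ₗ[F] V) →* Module.End F (V →ₗ[F] V →ₗ[F] F) where
  toFun g :=
    { toFun := fun M => M.compl₁₂ (g⁻¹ : V ≃ₗ[F] V).toLinearMap (g⁻¹ : V ≃ₗ[F] V).toLinearMap
      map_add' := fun M N => by
        ext v w
        rfl
      map_smul' := fun c M => by
        ext v w
        rfl }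
  map_one' := by
    ext M v w
    rfl
  map_mul' g g' := by
    ext M v w
    rfl

theorem rho_apply (g : V ≃ₗ[F] V) (M : V →ₗ[F] V →ₗ[F] F) (v w : V) :
    rho F V g M v w = M ((g⁻¹ : V ≃ₗ[F] V) v) ((g⁻¹ : V ≃ₗ[F] V) w) := rfl

/-- Bilinear forms from a function on pure tensors. -/
noncomputable def TD.mk4 (h : TD Q QA QB ten) (φ : A → B → A → B → F)
    (h1 : ∀ a a' b x y, φ (a + a') b x y = φ a b x y + φ a' b x y)
    (h1' : ∀ (c : F) a b x y, φ (c • a) b x y = c * φ a b x y)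
    (h2 : ∀ a b b' x y, φ a (b + b') x y = φ a b x y + φ a b' x y)
    (h2' : ∀ (c : F) a b x y, φ a (c • b) x y = c * φ a b x y)
    (h3 : ∀ a b x x' y, φ a b (x + x') y = φ a b x y + φ a b x' y)
    (h3' : ∀ (c : F) a b x y, φ a b (c • x) y = c * φ a b x y)
    (h4 : ∀ a b x y y', φ a b x (y + y') = φ a b x y + φ a b x y')
    (h4' : ∀ (c : F) a b x y, φ a b x (c • y) = c * φ a b x y) : V →ₗ[F] V →ₗ[F] F :=
  h.tl (LinearMap.mk₂ F (fun a b => h.tl (LinearMap.mk₂ F (fun x y => φ a b x y)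
      (fun x x' y => h3 a b x x' y) (fun c x y => h3' c a b x y)
      (fun x y y' => h4 a b x y y') (fun c x y => h4' c a b x y)))
    (fun a a' b => h.ext fun x y => by
      rw [LinearMap.add_apply, h.tl_ten, h.tl_ten, h.tl_ten]
      exact h1 a a' b x y)
    (fun c a b => h.ext fun x y => by
      rw [LinearMap.smul_apply, h.tl_ten, h.tl_ten]
      exact h1' c a b x y)
    (fun a b b' => h.ext fun x y => by
      rw [LinearMap.add_apply, h.tl_ten, h.tl_ten, h.tl_ten]
      exact h2 a b b' x y)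
    (fun c a b => h.ext fun x y => by
      rw [LinearMap.smul_apply, h.tl_ten, h.tl_ten]
      exact h2' c a b x y))

theorem TD.mk4_ten (h : TD Q QA QB ten) (φ : A → B → A → B → F)
    (h1 h1' h2 h2' h3 h3' h4 h4') (a : A) (b : B) (x : A) (y : B) :
    h.mk4 φ h1 h1' h2 h2' h3 h3' h4 h4' (ten a b) (ten x y) = φ a b x y := by
  rw [TD.mk4, h.tl_ten, LinearMap.mk₂_apply, h.tl_ten, LinearMap.mk₂_apply]

/-- The projection onto `Λ²(A)* ⊗ Λ²(B)*`, as a function. -/
noncomputable def TD.pjF (h : TD Q QA QB ten) (M : V →ₗ[F] V →ₗ[F] F) : V →ₗ[F] V →ₗ[F] F :=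
  h.mk4 (fun a b x y => (4 : F)⁻¹ * (M (ten a b) (ten x y) - M (ten x b) (ten a y) -
      M (ten a y) (ten x b) + M (ten x y) (ten a b)))
    (by intros; simp only [map_add, LinearMap.add_apply]; ring)
    (by intros; simp only [map_smul, LinearMap.smul_apply, smul_eq_mul]; ring)
    (by intros; simp only [map_add, LinearMap.add_apply]; ring)
    (by intros; simp only [map_smul, LinearMap.smul_apply, smul_eq_mul]; ring)
    (by intros; simp only [map_add, LinearMap.add_apply]; ring)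
    (by intros; simp only [map_smul, LinearMap.smul_apply, smul_eq_mul]; ring)
    (by intros; simp only [map_add, LinearMap.add_apply]; ring)
    (by intros; simp only [map_smul, LinearMap.smul_apply, smul_eq_mul]; ring)

theorem TD.pjF_ten (h : TD Q QA QB ten) (M : V →ₗ[F] V →ₗ[F] F) (a : A) (b : B) (x : A) (y : B) :
    h.pjF M (ten a b) (ten x y) = (4 : F)⁻¹ * (M (ten a b) (ten x y) - M (ten x b) (ten a y) -
      M (ten a y) (ten x b) + M (ten x y) (ten a b)) := by
  rw [TD.pjF, h.mk4_ten]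

/-- The projection onto `Λ²(A)* ⊗ Λ²(B)*`. -/
noncomputable def TD.pj (h : TD Q QA QB ten) : Module.End F (V →ₗ[F] V →ₗ[F] F) where
  toFun := h.pjF
  map_add' M N := by
    refine h.ext₂ fun a b x y => ?_
    rw [LinearMap.add_apply, LinearMap.add_apply, h.pjF_ten, h.pjF_ten, h.pjF_ten]
    simp only [LinearMap.add_apply]
    ring
  map_smul' c M := by
    refine h.ext₂ fun a b x y => ?_
    rw [LinearMap.smul_apply, LinearMap.smul_apply, h.pjF_ten, h.pjF_ten]
    simp only [LinearMap.smul_apply, smul_eq_mul, RingHom.id_apply]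
    ring

theorem TD.pj_ten (h : TD Q QA QB ten) (M : V →ₗ[F] V →ₗ[F] F) (a : A) (b : B) (x : A) (y : B) :
    h.pj M (ten a b) (ten x y) = (4 : F)⁻¹ * (M (ten a b) (ten x y) - M (ten x b) (ten a y) -
      M (ten a y) (ten x b) + M (ten x y) (ten a b)) :=
  h.pjF_ten M a b x y

theorem TD.four (h : TD Q QA QB ten) : (4 : F) ≠ 0 := by
  have : (4 : F) = 2 * 2 := by norm_num
  rw [this]
  exact mul_ne_zero h.two h.two

theorem TD.pj_pj (h : TD Q QA QB ten) (M : V →ₗ[F] V →ₗ[F] F) : h.pj (h.pj M) = h.pj M := by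
  refine h.ext₂ fun a b x y => ?_
  rw [h.pj_ten, h.pj_ten, h.pj_ten, h.pj_ten, h.pj_ten]
  have h4 := h.four
  field_simp
  ring

/-- The projection commutes with the elements preserving the decomposition. -/
theorem TD.pj_comm (h : TD Q QA QB ten) {g : V ≃ₗ[F] V} (hg : DS ten g) :
    rho F V g * h.pj = h.pj * rho F V g := by
  refine LinearMap.ext fun M => h.ext₂ fun a b x y => ?_
  rw [Module.End.mul_apply, Module.End.mul_apply, rho_apply, h.pj_ten]
  simp only [rho_apply]
  rcases hg.inv with ⟨α, β, hαβ⟩ | ⟨σ, τ, hστ⟩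
  · simp only [hαβ]
    rw [h.pj_ten]
  · simp only [hστ]
    rw [h.pj_ten]
    ring

/-- Alternating in both slots. -/
theorem TD.fix_iff (h : TD Q QA QB ten) (M : V →ₗ[F] V →ₗ[F] F) :
    h.pj M = M ↔ (∀ a b x y, M (ten x b) (ten a y) = - M (ten a b) (ten x y)) ∧
      (∀ a b x y, M (ten a y) (ten x b) = - M (ten a b) (ten x y)) := by
  have h4 := h.four
  constructor
  · intro hM
    refine ⟨fun a b x y => ?_, fun a b x y => ?_⟩
    · rw [← hM, h.pj_ten, h.pj_ten]
      ring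
    · rw [← hM, h.pj_ten, h.pj_ten]
      ring
  · rintro ⟨h1, h2⟩
    refine h.ext₂ fun a b x y => ?_
    rw [h.pj_ten, h1 a b x y, h2 a b x y]
    have h3 : M (ten x y) (ten a b) = M (ten a b) (ten x y) := by
      rw [h1 a y x b, h2 a b x y, neg_neg]
    rw [h3]
    field_simp
    ring

/-- `η ⊗ ω`. -/
noncomputable def TD.mko (h : TD Q QA QB ten) (η : A →ₗ[F] A →ₗ[F] F) (ω : B →ₗ[F] B →ₗ[F] F) :
    V →ₗ[F] V →ₗ[F] F :=
  h.mk4 (fun a b x y => η a x * ω b y)
    (by intros; simp only [map_add, LinearMap.add_apply]; ring)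
    (by intros; simp only [map_smul, LinearMap.smul_apply, smul_eq_mul]; ring)
    (by intros; simp only [map_add, LinearMap.add_apply]; ring)
    (by intros; simp only [map_smul, LinearMap.smul_apply, smul_eq_mul]; ring)
    (by intros; simp only [map_add, LinearMap.add_apply]; ring)
    (by intros; simp only [map_smul, LinearMap.smul_apply, smul_eq_mul]; ring)
    (by intros; simp only [map_add, LinearMap.add_apply]; ring)
    (by intros; simp only [map_smul, LinearMap.smul_apply, smul_eq_mul]; ring)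

theorem TD.mko_ten (h : TD Q QA QB ten) (η : A →ₗ[F] A →ₗ[F] F) (ω : B →ₗ[F] B →ₗ[F] F) (a : A)
    (b : B) (x : A) (y : B) : h.mko η ω (ten a b) (ten x y) = η a x * ω b y := by
  rw [TD.mko, h.mk4_ten]

theorem TD.mko_fix (h : TD Q QA QB ten) {η : A →ₗ[F] A →ₗ[F] F} {ω : B →ₗ[F] B →ₗ[F] F}
    (hη : ∀ a x, η x a = - η a x) (hω : ∀ b y, ω y b = - ω b y) : h.pj (h.mko η ω) = h.mko η ω := by
  rw [h.fix_iff]
  refine ⟨fun a b x y => ?_, fun a b x y => ?_⟩
  · rw [h.mko_ten, h.mko_ten, hη]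
    ring
  · rw [h.mko_ten, h.mko_ten, hω]
    ring

/-- The alternating form `x ∧ y` on `A`. -/
def om (QA : QuadraticForm F A) (x y : A) : A →ₗ[F] A →ₗ[F] F :=
  LinearMap.mk₂ F (fun a a' => polar QA x a * polar QA y a' - polar QA y a * polar QA x a')
    (by intros; simp only [polar_add_right]; ring)
    (by intros; simp only [polar_smul_right, smul_eq_mul]; ring)
    (by intros; simp only [polar_add_right]; ring)
    (by intros; simp only [polar_smul_right, smul_eq_mul]; ring)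

theorem om_apply (x y a a' : A) : om QA x y a a' =
    polar QA x a * polar QA y a' - polar QA y a * polar QA x a' := rfl

theorem om_skew (x y a a' : A) : om QA x y a' a = - om QA x y a a' := by
  rw [om_apply, om_apply]; ring

/-! ### pure tensors -/

theorem TD.not_pure_add (h : TD Q QA QB ten) {p1 p2 p : A} {q1 q2 q : B}
    (e : ten p1 q1 + ten p2 q2 = ten p q) (hp : ∀ c1 c2 : F, c1 • p1 + c2 • p2 = 0 → c1 = 0 ∧ c2 = 0) :
    (∃ c : F, q1 = c • q) ∧ (∃ c : F, q2 = c • q) := by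
  have key : ∀ b, polar QB q b = 0 → polar QB q1 b = 0 ∧ polar QB q2 b = 0 := by
    intro b hb
    have e1 := congrArg (h.pb b) e
    rw [map_add, h.pb_ten, h.pb_ten, h.pb_ten, polar_comm QB b q, hb, zero_smul,
      polar_comm QB b q1, polar_comm QB b q2] at e1
    exact hp _ _ e1
  constructor
  · by_contra hcon
    push Not at hcon
    obtain ⟨y, hy1, hy2⟩ := exists_sep h.nB hcon
    rw [(key y hy1).1] at hy2
    exact zero_ne_one hy2
  · by_contra hcon
    push Not at hcon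
    obtain ⟨y, hy1, hy2⟩ := exists_sep h.nB hcon
    rw [(key y hy1).2] at hy2
    exact zero_ne_one hy2

/-- A vector on which all alternating ⊗ alternating forms vanish is pure. -/
theorem TD.pure_of_forms (h : TD Q QA QB ten) (hb : HB QB b1 b2 b3) {v : V}
    (hv : ∀ M : V →ₗ[F] V →ₗ[F] F, h.pj M = M → M v v = 0) : ∃ a b, v = ten a b := by
  have key : ∀ (x y : A) (c c' : B), polar QA x (h.pb c v) * polar QA y (h.pb c' v) =
      polar QA y (h.pb c v) * polar QA x (h.pb c' v) := by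
    intro x y c c'
    have h1 := hv (h.mko (om QA x y) (om QB c c')) (h.mko_fix (om_skew x y) (om_skew c c'))
    -- compute
    have h2 : h.mko (om QA x y) (om QB c c') v v =
        2 * (polar QA x (h.pb c v) * polar QA y (h.pb c' v) -
          polar QA y (h.pb c v) * polar QA x (h.pb c' v)) := by
      have e : ∀ w w' : V, h.mko (om QA x y) (om QB c c') w w' =
          polar QA x (h.pb c w) * polar QA y (h.pb c' w') -
          polar QA y (h.pb c w) * polar QA x (h.pb c' w') -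
          polar QA x (h.pb c' w) * polar QA y (h.pb c w') +
          polar QA y (h.pb c' w) * polar QA x (h.pb c w') := by
        intro w w'
        let N : V →ₗ[F] V →ₗ[F] F := LinearMap.mk₂ F (fun w w' =>
          polar QA x (h.pb c w) * polar QA y (h.pb c' w') -
          polar QA y (h.pb c w) * polar QA x (h.pb c' w') -
          polar QA x (h.pb c' w) * polar QA y (h.pb c w') +
          polar QA y (h.pb c' w) * polar QA x (h.pb c w'))
          (by intros; simp only [map_add, polar_add_right]; ring)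
          (by intros; simp only [map_smul, polar_smul_right, smul_eq_mul]; ring)
          (by intros; simp only [map_add, polar_add_right]; ring)
          (by intros; simp only [map_smul, polar_smul_right, smul_eq_mul]; ring)
        have : h.mko (om QA x y) (om QB c c') = N := by
          refine h.ext₂ fun a b a' b' => ?_
          rw [h.mko_ten, om_apply, om_apply]
          show _ = polar QA x (h.pb c (ten a b)) * polar QA y (h.pb c' (ten a' b')) -
            polar QA y (h.pb c (ten a b)) * polar QA x (h.pb c' (ten a' b')) -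
            polar QA x (h.pb c' (ten a b)) * polar QA y (h.pb c (ten a' b')) +
            polar QA y (h.pb c' (ten a b)) * polar QA x (h.pb c (ten a' b'))
          simp only [h.pb_ten, polar_smul_right, smul_eq_mul]
          ring
        rw [this]
        rfl
      rw [e]
      ring
    rw [h2] at h1
    have := (mul_eq_zero.1 h1).resolve_left h.two
    exact sub_eq_zero.1 this
  -- all `pb c v` are parallel
  by_cases h0 : ∀ c, h.pb c v = 0
  · refine ⟨0, 0, ?_⟩
    rw [h.decomp hb v, h0, h0, h0]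
    simp
  · push Not at h0
    obtain ⟨c0, hc0⟩ := h0
    set a0 := h.pb c0 v with ha0
    obtain ⟨x0, hx0⟩ := h.nA.exists_polar_eq hc0 1
    have hpar : ∀ c, h.pb c v = polar QA x0 (h.pb c v) • a0 := by
      intro c
      have h1 : h.pb c v - polar QA x0 (h.pb c v) • a0 = 0 := by
        apply h.nA
        intro y
        rw [polar_sub_left, polar_smul_left, smul_eq_mul]
        have := key x0 y c c0
        rw [← ha0, polar_comm QA x0 a0, hx0, mul_one] at this
        rw [polar_comm QA (h.pb c v) y, polar_comm QA a0 y]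
        linear_combination -this
      exact sub_eq_zero.1 h1
    refine ⟨a0, polar QA x0 (h.pb b3 v) • b1 + ((2 * QB b2)⁻¹ * polar QA x0 (h.pb b2 v)) • b2 +
      polar QA x0 (h.pb b1 v) • b3, ?_⟩
    conv_lhs => rw [h.decomp hb v, hpar b3, hpar b2, hpar b1]
    simp only [map_add, map_smul, LinearMap.smul_apply, smul_smul]

theorem TD.pure_pair (h : TD Q QA QB ten) {p1 p2 p : A} {q1 q2 q : B}
    (e : ten p1 q1 + ten p2 q2 = ten p q) (hp1 : p1 ≠ 0) (hq1 : q1 ≠ 0) :
    (∃ c : F, q2 = c • q1) ∨ (∃ c : F, p2 = c • p1) := by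
  by_cases hq : ∀ c1 c2 : F, c1 • q1 + c2 • q2 = 0 → c1 = 0 ∧ c2 = 0
  · right
    obtain ⟨⟨c1, hc1⟩, ⟨c2, hc2⟩⟩ := h.flip.not_pure_add (p1 := q1) (p2 := q2) (p := q) (q1 := p1)
      (q2 := p2) (q := p) e hq
    have hc10 : c1 ≠ 0 := by
      rintro rfl
      rw [zero_smul] at hc1
      exact hp1 hc1
    refine ⟨c2 * c1⁻¹, ?_⟩
    rw [hc1, smul_smul, mul_assoc, inv_mul_cancel₀ hc10, mul_one, hc2]
  · left
    push Not at hq
    obtain ⟨c1, c2, hc, hne⟩ := hq
    have hc2 : c2 ≠ 0 := by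
      rintro rfl
      rw [zero_smul, add_zero] at hc
      have hc1 := (smul_eq_zero.1 hc).resolve_right hq1
      exact hne hc1 rfl
    refine ⟨-(c2⁻¹ * c1), ?_⟩
    have h1 : c2 • q2 = - (c1 • q1) := by
      rw [eq_neg_iff_add_eq_zero, add_comm]
      exact hc
    have h2 : q2 = c2⁻¹ • (c2 • q2) := by rw [smul_smul, inv_mul_cancel₀ hc2, one_smul]
    rw [h2, h1, smul_neg, smul_smul, neg_smul]

/-- Spaces of pure tensors. -/
theorem TD.pure_space (h : TD Q QA QB ten) {W : Type*} [AddCommGroup W] [Module F W]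
    {f : W →ₗ[F] V} (hp : ∀ x, ∃ a b, f x = ten a b) :
    (∃ b, ∀ x, ∃ a, f x = ten a b) ∨ (∃ a, ∀ x, ∃ b, f x = ten a b) := by
  by_cases hz : ∀ x, f x = 0
  · left
    exact ⟨0, fun x => ⟨0, by rw [hz, map_zero]⟩⟩
  push Not at hz
  obtain ⟨x0, hx0⟩ := hz
  obtain ⟨p0, q0, h0⟩ := hp x0
  have hne : ∀ {p : A} {q : B}, ten p q ≠ 0 → p ≠ 0 ∧ q ≠ 0 := by
    intro p q hpq
    refine ⟨?_, ?_⟩
    · rintro rfl
      exact hpq (by rw [map_zero, LinearMap.zero_apply])
    · rintro rfl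
      exact hpq (by rw [map_zero])
  have hpq0 := hne (by rw [← h0]; exact hx0)
  by_cases hall : ∀ x, ∃ a, f x = ten a q0
  · exact Or.inl ⟨q0, hall⟩
  right
  push Not at hall
  obtain ⟨x2, hx2⟩ := hall
  obtain ⟨p2, q2, h2⟩ := hp x2
  have hq2 : ∀ c : F, q2 ≠ c • q0 := by
    intro c hc
    apply hx2 (c • p2)
    rw [h2, hc]
    simp
  have hx20 : ten p2 q2 ≠ 0 := by
    intro h0'
    apply hx2 0
    rw [h2, h0', map_zero, LinearMap.zero_apply]
  have hpq2 := hne hx20
  have pair : ∀ x x' {p p' : A} {q q' : B}, f x = ten p q → f x' = ten p' q' → p ≠ 0 → q ≠ 0 →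
      (∃ c : F, q' = c • q) ∨ (∃ c : F, p' = c • p) := by
    intro x x' p p' q q' hx hx' hp0 hq0
    obtain ⟨p3, q3, h3⟩ := hp (x + x')
    rw [map_add, hx, hx'] at h3
    exact h.pure_pair h3 hp0 hq0
  obtain ⟨c0, hc0⟩ : ∃ c : F, p2 = c • p0 := by
    rcases pair x0 x2 h0 h2 hpq0.1 hpq0.2 with ⟨c, hc⟩ | hc
    · exact absurd hc (hq2 c)
    · exact hc
  have hc00 : c0 ≠ 0 := by
    rintro rfl
    rw [zero_smul] at hc0
    exact hpq2.1 hc0
  refine ⟨p0, fun x => ?_⟩
  obtain ⟨p, q, hx⟩ := hp x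
  by_cases hx0' : ten p q = 0
  · exact ⟨0, by rw [hx, hx0', map_zero]⟩
  have hpq := hne hx0'
  have hfin : (∃ c : F, p = c • p0) → ∃ b, f x = ten p0 b := by
    rintro ⟨c, hc⟩
    refine ⟨c • q, ?_⟩
    rw [hx, hc]
    simp
  rcases pair x0 x h0 hx hpq0.1 hpq0.2 with ⟨c, hc⟩ | hc
  · have hcne : c ≠ 0 := by
      rintro rfl
      rw [zero_smul] at hc
      exact hpq.2 hc
    rcases pair x x2 hx h2 hpq.1 hpq.2 with ⟨c', hc'⟩ | ⟨c', hc'⟩
    · exact absurd (by rw [hc', hc, smul_smul]) (hq2 (c' * c))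
    · have hc'0 : c' ≠ 0 := by
        rintro rfl
        rw [zero_smul] at hc'
        exact hpq2.1 hc'
      apply hfin
      refine ⟨c'⁻¹ * c0, ?_⟩
      have : p = c'⁻¹ • p2 := by rw [hc', smul_smul, inv_mul_cancel₀ hc'0, one_smul]
      rw [this, hc0, smul_smul]
  · exact hfin hc

end Cfsg.Agent.H922.Ten
end
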